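import Cfsg.Agent.Lib.Helper13.CosetBase

set_option autoImplicit false

/-!
Lower bounds for the orders of subgroups generated by some of the generators, from chains of
pointwise stabilisers in the permutation action of a certificate.
-/

namespace Cfsg.Agent.Lib.Helper13.CE

variable {α : Type} {G : Type*} [Group G] {n k : ℕ}

theorem Act.ev_mem_sub (X : Act α G n k) (ls : List α) (W : List α) (h : ∀ x ∈ W, x ∈ ls) :
    X.ev W ∈ X.sub ls := by
  induction W with
  | nil => rw [Act.ev_nil]; exact one_mem _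
  | cons x W ih =>
    rw [Act.ev_cons]
    exact mul_mem (Subgroup.subset_closure ⟨x, h x List.mem_cons_self, rfl⟩)
      (ih (fun y hy => h y (List.mem_cons_of_mem _ hy)))

/-- one level inside the subgroup generated by the letters `ls`. -/
def lvlWK [DecidableEq α] (nets : α → List (ℕ × ℕ)) (n : ℕ) (ls : List α) (bs : List ℕ)
    (ws : List (List α)) (b : ℕ) (steps : List ℕ) (m : ℕ) : Bool :=
  ws.all (fun W => W.all (fun x => decide (x ∈ ls))) && lvlW nets n bs ws b steps m

theorem Act.lvlWK_sound [DecidableEq α] (X : Act α G n k) [Finite G] (ls : List α)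
    (bs : List ℕ) (ws : List (List α)) (b : ℕ) (steps : List ℕ) (m : ℕ)
    (h : lvlWK X.nets n ls bs ws b steps m = true) :
    m * Nat.card ↥(X.sub ls ⊓ X.pstab (b :: bs)) ≤ Nat.card ↥(X.sub ls ⊓ X.pstab bs) := by
  simp only [lvlWK, lvlW, Bool.and_eq_true, List.all_eq_true, decide_eq_true_eq] at h
  obtain ⟨hls, hb, hfixw, hm⟩ := h
  have hb' : b < n := by simpa [Nat.blt] using hb
  let bF : Fin n := ⟨b, hb'⟩
  have hfix : ∀ h ∈ X.sub ls ⊓ X.pstab (b :: bs), X.φ h bF = bF :=
    fun h hh => hh.2 b List.mem_cons_self bF rfl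
  have hle : X.sub ls ⊓ X.pstab (b :: bs) ≤ X.sub ls ⊓ X.pstab bs :=
    fun g hg => ⟨hg.1, fun p hp c hc => hg.2 p (List.mem_cons_of_mem _ hp) c hc⟩
  have horb := X.orbBFS_sound (X.sub ls ⊓ X.pstab bs) ws (by
      intro W hW
      refine ⟨X.ev_mem_sub ls W (hls W hW), ?_⟩
      intro p hp c hc
      apply Fin.ext
      rw [X.φ_ev_val, hc]
      exact Nat.eq_of_beq_eq_true (hfixw W hW p hp)) bF steps (Nat.shiftLeft 1 b) (by
      intro c hc
      rw [shl_eq, Nat.one_shiftLeft, Nat.testBit_two_pow] at hc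
      have : (c : ℕ) = b := by
        have := hc; simp at this; exact this.symm
      exact ⟨1, (X.sub ls ⊓ X.pstab bs).one_mem, by
        rw [map_one]; exact Fin.ext (by simp [bF, this])⟩)
  have hcnt := cnt_le_ncard _ n {c : Fin n | ∃ h ∈ X.sub ls ⊓ X.pstab bs, X.φ h bF = c} horb
  have hm' : m ≤ Set.ncard {c : Fin n | ∃ h ∈ X.sub ls ⊓ X.pstab bs, X.φ h bF = c} :=
    le_trans (Nat.le_of_ble_eq_true hm) hcnt
  exact le_trans (Nat.mul_le_mul_right _ hm') (card_orbit_mul_le X.φ _ _ hle bF hfix)

/-- a chain of levels inside the subgroup generated by the letters `ls`. -/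
def chainWK [DecidableEq α] (nets : α → List (ℕ × ℕ)) (n : ℕ) (ls : List α) :
    List ℕ → List (List (List α) × ℕ × List ℕ × ℕ) → Bool
  | _, [] => true
  | bs, lv :: rest =>
    lvlWK nets n ls bs lv.1 lv.2.1 lv.2.2.1 lv.2.2.2 && chainWK nets n ls (lv.2.1 :: bs) rest

theorem Act.chainWK_sound [DecidableEq α] (X : Act α G n k) [Finite G] (ls : List α) :
    ∀ (bs : List ℕ) (lv : List (List (List α) × ℕ × List ℕ × ℕ)),
      chainWK X.nets n ls bs lv = true →
      (lv.map (fun l => l.2.2.2)).prod ≤ Nat.card ↥(X.sub ls ⊓ X.pstab bs)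
  | bs, [], _ => by
    simp only [List.map_nil, List.prod_nil]
    exact Nat.card_pos
  | bs, lv :: rest, h => by
    simp only [chainWK, Bool.and_eq_true] at h
    have h1 := X.lvlWK_sound ls bs lv.1 lv.2.1 lv.2.2.1 lv.2.2.2 h.1
    have h2 := X.chainWK_sound ls (lv.2.1 :: bs) rest h.2
    simp only [List.map_cons, List.prod_cons]
    exact le_trans (Nat.mul_le_mul_left _ h2) h1

/-- the order of the subgroup generated by the letters `ls` is at least the product of the
orbit lengths of a chain. -/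
theorem Act.le_card_sub_of_chainWK [DecidableEq α] (X : Act α G n k) [Finite G] (ls : List α)
    (lv : List (List (List α) × ℕ × List ℕ × ℕ))
    (h : chainWK X.nets n ls [] lv = true) :
    (lv.map (fun l => l.2.2.2)).prod ≤ Nat.card ↥(X.sub ls) :=
  le_trans (X.chainWK_sound ls [] lv h)
    (Nat.card_le_card_of_injective (Subgroup.inclusion inf_le_left)
      (Subgroup.inclusion_injective inf_le_left))

end Cfsg.Agent.Lib.Helper13.CE
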