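import Cfsg.Agent.Lib.Helper13.CosetCox
set_option autoImplicit false
set_option maxRecDepth 100000

open Cfsg.Agent.Lib.Helper13.CE

namespace Cfsg.Agent.Lib.Helper13.CoxB2

def netL : List (List (ℕ × ℕ)) := [[(0x41, 1), (0x30, 2), (0xc, 4), (0x30, 2)],
  [(0x33, 2)]]
def nets (i : Fin 2) : List (ℕ × ℕ) := netL.getD i.val []
def idx (i : Fin 2) : ℕ := i.val
def lettersW : List (Fin 2) := [0, 1]
def relsW : List (List (Fin 2)) := [[0, 0],
  [1, 1],
  [0, 1, 0, 1, 0, 1, 0, 1]]
def subsW : List (List (Fin 2)) := []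
def par : Par (Fin 2) := { nets := nets, idx := idx, letters := lettersW, rels := relsW, subs := subsW, n := 8, N := 8, P := 2, full := 2 ^ 8 - 1 }
def tree : List (Fin 2) := [0, 1, 0, 1]
def stepsA_0 : List (StepA (Fin 2)) := [.z 2 1]
def stepsA : List (StepA (Fin 2)) := stepsA_0
def AR_0 : List (List ℕ) := []
def ARc : List (List (List ℕ)) := [AR_0]
def AR : List (List ℕ) := ARc.flatten
def AS_0 : List (List ℕ) := []
def AS : List (List ℕ) := AS_0
def defsB_0 : List (ℕ × ℕ) := []
def defsB : List (ℕ × ℕ) := defsB_0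
def stepsB_0 : List (StepB) := []
def stepsB : List (StepB) := stepsB_0
def parB : ParB := { wd := 2, NL := 2, fuel := 64, AR := ARc, AS := AS, defs := defsB }

end Cfsg.Agent.Lib.Helper13.CoxB2
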