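import Cfsg.Agent.Lib.Helper13.CoxF4Data
set_option autoImplicit false
set_option maxRecDepth 100000

open Cfsg.Agent.Lib.Helper13.CE

namespace Cfsg.Agent.Lib.Helper13.CoxF4

theorem hA : checkA par 4 tree stepsA parB.AR.flatten parB.AS 1 = true := by decide +kernel
theorem hB : checkB parB stepsB = true := by decide +kernel
theorem hstat : staticOK par 1152 11 = true := by decide +kernel

end Cfsg.Agent.Lib.Helper13.CoxF4
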