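import Cfsg.Agent.Lib.Helper13.F22K8Data
import Cfsg.Agent.Lib.Helper13.CosetPrim
set_option autoImplicit false
set_option maxRecDepth 100000

open Cfsg.Agent.Lib.Helper13.CE

namespace Cfsg.Agent.Lib.Helper13.F22KPrim

def orbs : List (ℕ × ℕ × List ℕ × List (Fin 8) × List ℕ) := [(1, 288, [6, 5, 1, 2, 3, 4, 5, 6, 0, 1, 2, 3, 5, 6, 1, 2, 3, 4, 5, 6, 0, 1, 2, 3, 5, 6, 0], [7], [0, 7, 6, 2, 3, 4, 5, 6, 7, 0, 1, 2, 3, 4, 6, 7, 0, 2, 3, 4, 5, 6, 7, 0, 1, 2, 3, 4, 5, 6, 7, 1, 2, 3, 4, 5, 6, 7]),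
  (289, 630, [0, 2, 3, 4, 5, 6, 1, 3, 4, 5, 6, 1, 2, 3, 5, 6, 0, 1, 2, 3, 5, 0, 1, 2, 3, 5], [7, 6, 5, 2, 1, 5, 6, 7], [0, 1, 3, 4, 5, 6, 7, 0, 1, 2, 3, 4, 5, 6, 7, 0, 1, 2, 3, 4, 5, 6, 7, 0, 1, 2, 3, 4, 5, 6, 7, 0, 1, 2, 3, 4]),
  (919, 2240, [4, 5, 6, 1, 2, 3, 4, 5, 6, 0, 1, 2, 3, 4, 5, 6, 1, 2, 3, 5, 0, 1, 2, 3, 4, 5, 6], [7, 6, 5, 2, 1, 5, 3, 0, 2, 1, 5, 6, 7], [0, 5, 6, 7, 0, 1, 2, 3, 4, 5, 6, 7, 0, 1, 2, 3, 4, 5, 6, 7, 0, 1, 2, 3, 4, 5, 6, 7, 0, 1])]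

theorem hcov : rngCover 3159 1 orbs = true := by decide +kernel
theorem hprim : orbs.all (primOK F22K8.par.nets 3159 F22K8.par.subs) = true := by decide +kernel

end Cfsg.Agent.Lib.Helper13.F22KPrim
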