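import Cfsg.Agent.Lib.Helper13.F22KSData
set_option autoImplicit false
set_option maxRecDepth 100000

open Cfsg.Agent.Lib.Helper13.CE

namespace Cfsg.Agent.Lib.Helper13.F22KS

theorem hchainW : chainW F22K8.nets 3159 [] levelsW = true := by decide +kernel
theorem hprodW : (levelsW.map (fun l => l.2.2.2)).prod = 4585351680 := by decide +kernel
theorem hwit : F22K8.lettersW.all (fun x => witOK F22K8.nets 12 13 x (wit x)) = true := by decide +kernel
theorem hncpt : wpos F22K8.nets ([0, 2, 0, 2] : List (Fin 8)) 3 ≠ 3 := by decide +kernel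

end Cfsg.Agent.Lib.Helper13.F22KS
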