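import Cfsg.Agent.Lib.Helper13.F22K8P
import Cfsg.Agent.Lib.Helper13.F22KSChk
import Cfsg.Agent.Lib.Helper13.F22KPrim
set_option autoImplicit false
set_option maxRecDepth 100000

/-!
The group presented on eight involutions with the Coxeter relations of the graph `Y₂₃₂`, the
spider relation and an `E₇` relation has order 4585351680, acts faithfully and primitively on
3159 points, and is simple.
-/

open Cfsg.Agent.Lib.Helper13.CE Cfsg.Spor Cfsg.Agent.Lib.Helper13.F22K8

namespace Cfsg.Agent.Lib.Helper13.F22KO

/-- the relators. -/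
abbrev Rel : Set (FreeGroup (Fin 8)) := coxRelators F22K8.edges ∪ {r | r ∈ F22K8.extra}

/-- the presented group. -/
abbrev P : Type := F22K8.Grp

/-- the subgroup of index 3159. -/
def Hs : Subgroup P :=
  Subgroup.closure {g | ∃ W ∈ par.subs, g = PresentedGroup.mk Rel ((W.map FreeGroup.of).prod)}

theorem main : ∃ (X : Act (Fin 8) P 3159 12) (f : P ⧸ Hs ≃ Fin 3159),
    X.nets = par.nets ∧
    (∀ W : List (Fin 8), X.ev W = PresentedGroup.mk Rel ((W.map FreeGroup.of).prod)) ∧
    (∀ g, f (QuotientGroup.mk g) = X.φ g 0) :=
  F22K8.main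

instance finite : Finite P := F22K8.card_le.1

/-- the action on the 3159 cosets is faithful, and the order of the group. -/
theorem faithful : ∃ (X : Act (Fin 8) P 3159 12) (f : P ⧸ Hs ≃ Fin 3159),
    X.nets = par.nets ∧
    (∀ W : List (Fin 8), X.ev W = PresentedGroup.mk Rel ((W.map FreeGroup.of).prod)) ∧
    (∀ g, f (QuotientGroup.mk g) = X.φ g 0) ∧ Function.Injective X.φ ∧
    Nat.card P = 4585351680 := by
  obtain ⟨X, f, hnets, hev, hf⟩ := main
  have h := X.injective_of_chainW F22KS.levelsW (by rw [hnets]; exact F22KS.hchainW)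
    4585351680 (le_trans F22K8.card_le.2 (by norm_num)) (by rw [F22KS.hprodW])
  exact ⟨X, f, hnets, hev, hf, h.1, h.2⟩

theorem card : Nat.card P = 4585351680 := by
  obtain ⟨X, f, -, -, -, -, h⟩ := faithful
  exact h

theorem simple : IsSimpleGroup P := by
  obtain ⟨X, f, hnets, hev, hf, hinj, hcard⟩ := faithful
  have hH : Hs = Subgroup.closure {g | ∃ W ∈ par.subs, g = X.ev W} := by
    unfold Hs
    congr 1
    ext g
    constructor
    · rintro ⟨W, hW, rfl⟩; exact ⟨W, hW, (hev W).symm⟩
    · rintro ⟨W, hW, rfl⟩; exact ⟨W, hW, hev W⟩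
  have hs : ∀ x, X.s x = PresentedGroup.of x := by
    intro x
    have := hev [x]
    simp only [Act.ev, List.map_cons, List.map_nil, List.prod_cons, List.prod_nil,
      mul_one] at this
    exact this
  have hgen : Subgroup.closure (Set.range X.s) = ⊤ := by
    have h1 : X.s = PresentedGroup.of (rels := Rel) := funext hs
    rw [h1]
    exact PresentedGroup.closure_range_of _
  have hprim := X.isPreprimitive_of_orbs Hs f hf par.subs hH F22KPrim.orbs F22KPrim.hcov
    (by rw [hnets]; exact F22KPrim.hprim)
  refine X.isSimpleGroup_of_prime hinj hprim hgen 13 (by norm_num) ?_ (by rw [hcard]; norm_num)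
    F22KS.wit ?_
  · intro j hj
    rw [hcard] at hj
    have : j = 1451520 := by omega
    rw [this]; norm_num
  · intro x
    have h := List.all_eq_true.mp F22KS.hwit x (F22K8.hletters x)
    rw [hnets]; exact h

/-- two generators which do not commute. -/
theorem not_comm : (PresentedGroup.of 0 : P) * PresentedGroup.of 2 ≠
    PresentedGroup.of 2 * PresentedGroup.of 0 := by
  obtain ⟨X, f, hnets, hev, hf, hinj, hcard⟩ := faithful
  intro h
  have hsq : ∀ x : Fin 8, (PresentedGroup.of x : P) * PresentedGroup.of x = 1 := by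
    intro x
    have h1 := X.hs x
    have h2 : X.s x = PresentedGroup.of x := by
      have := hev [x]
      simp only [Act.ev, List.map_cons, List.map_nil, List.prod_cons, List.prod_nil,
        mul_one] at this
      exact this
    rw [h2] at h1
    exact h1
  have e : PresentedGroup.mk Rel ((([0, 2, 0, 2] : List (Fin 8)).map FreeGroup.of).prod) =
      (PresentedGroup.of 0 : P) * PresentedGroup.of 2 *
        (PresentedGroup.of 0 * PresentedGroup.of 2) := by
    simp only [List.map_cons, List.map_nil, List.prod_cons, List.prod_nil, mul_one, map_mul,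
      mul_assoc]
    rfl
  have h1 : X.ev [0, 2, 0, 2] = 1 := by
    rw [hev, e]
    calc (PresentedGroup.of 0 : P) * PresentedGroup.of 2 *
          (PresentedGroup.of 0 * PresentedGroup.of 2)
        = PresentedGroup.of 0 * PresentedGroup.of 2 *
          (PresentedGroup.of 2 * PresentedGroup.of 0) := by rw [← h]
      _ = PresentedGroup.of 0 * (PresentedGroup.of 2 * PresentedGroup.of 2) *
          PresentedGroup.of 0 := by simp only [mul_assoc]
      _ = 1 := by rw [hsq 2, mul_one, hsq 0]
  exact X.φ_ev_ne_one [0, 2, 0, 2] ⟨3, by norm_num⟩ (by rw [hnets]; exact F22KS.hncpt)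
    (by rw [h1, map_one])

theorem commutator_eq_top : commutator P = ⊤ := by
  haveI := simple
  rcases IsSimpleGroup.eq_bot_or_eq_top_of_normal (commutator P) inferInstance with h | h
  · exfalso
    have hk : (Abelianization.of : P →* Abelianization P).ker = ⊥ := by
      rw [Abelianization.ker_of, h]
    have hinj := (MonoidHom.ker_eq_bot_iff _).mp hk
    apply not_comm
    apply hinj
    rw [map_mul, map_mul, mul_comm]
  · exact h

end Cfsg.Agent.Lib.Helper13.F22KO
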