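import Cfsg.Agent.Lib.Helper13.F22K8Data
import Cfsg.Agent.Lib.Helper13.CosetBase
set_option autoImplicit false
set_option maxRecDepth 100000

open Cfsg.Agent.Lib.Helper13.CE

namespace Cfsg.Agent.Lib.Helper13.F22KS

def levelsW : List (List (List (Fin 8)) × ℕ × List ℕ × ℕ) := [([[0], [1], [2], [3], [4], [5], [6], [7]], 0, [7, 6, 5, 1, 2, 3, 4, 5, 6, 7, 0, 1, 2, 3, 5, 6, 7, 1, 2, 3, 4, 5, 6, 7, 0, 1, 2, 3, 4, 5, 6, 0, 1, 2, 3, 4, 5, 6], 3159),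
  ([[0], [1], [2], [3], [4], [5], [6]], 919, [4, 5, 6, 1, 2, 3, 4, 5, 6, 0, 1, 2, 3, 4, 5, 6, 1, 2, 3, 5, 0, 1, 2, 3, 4, 5, 6], 2240),
  ([[0], [1], [2], [3], [6], [5, 2, 0, 6, 5, 1, 2, 5, 6, 3, 1, 5], [5, 1, 3, 6, 5, 1, 2, 5, 6, 0, 2, 5], [5, 1, 2, 0, 3, 5, 1, 2, 5, 6, 5, 2, 1, 5, 3, 0, 2, 1, 5]], 1006, [0, 1, 2, 3, 4, 5, 6, 7, 0, 1, 2, 3, 4, 5], 648)]
def witL : List (List (List (Fin 8))) := [[[4, 5, 7, 0, 6, 1, 3, 2], [4, 5, 7, 0, 6, 1, 3, 2]],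
  [[2, 5, 7, 3, 4, 1, 0, 6, 2, 5]],
  [[6, 1, 6, 0, 5, 1, 3, 7, 6, 1, 3, 2, 4, 5]],
  [[7, 1, 6, 2, 4, 0, 5, 3], [3, 1, 7, 2, 0, 3, 5, 6, 4, 1]],
  [[6, 5, 7, 3, 2, 4, 1, 0], [4, 5, 7, 2, 7, 0, 3, 6, 7, 1]],
  [[3, 1, 7, 2, 0, 3, 5, 6, 4, 1]],
  [[2, 5, 7, 3, 4, 1, 0, 6, 2, 5]],
  [[4, 5, 7, 0, 6, 1, 3, 2], [4, 5, 7, 0, 6, 1, 3, 2]]]
def wit (x : Fin 8) : List (List (Fin 8)) := witL.getD x.val []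

end Cfsg.Agent.Lib.Helper13.F22KS
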