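import Mathlib

set_option autoImplicit false

/-!
Matrices of size seven over the integers modulo three given by tables of natural numbers: the
product and the transpose of tables, and the quadratic form `x₀² + x₁x₄ + x₂x₅ + x₃x₆`.
-/

namespace Cfsg.Agent.Lib.Helper13.F3M

/-- the entry of a table. -/
def ent (A : List (List ℕ)) (i j : ℕ) : ℕ := (A.getD i []).getD j 0

/-- the matrix of a table. -/
def matZ (A : List (List ℕ)) : Matrix (Fin 7) (Fin 7) (ZMod 3) :=
  fun i j => ((ent A i j : ℕ) : ZMod 3)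

/-- the product of two tables. -/
def mulL (A B : List (List ℕ)) : List (List ℕ) :=
  (List.range 7).map (fun i => (List.range 7).map (fun j =>
    (ent A i 0 * ent B 0 j + ent A i 1 * ent B 1 j + ent A i 2 * ent B 2 j
      + ent A i 3 * ent B 3 j + ent A i 4 * ent B 4 j + ent A i 5 * ent B 5 j
      + ent A i 6 * ent B 6 j) % 3))

theorem ent_mulL (A B : List (List ℕ)) (i j : Fin 7) :
    ent (mulL A B) i j =
      (ent A i 0 * ent B 0 j + ent A i 1 * ent B 1 j + ent A i 2 * ent B 2 j
      + ent A i 3 * ent B 3 j + ent A i 4 * ent B 4 j + ent A i 5 * ent B 5 j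
      + ent A i 6 * ent B 6 j) % 3 := by
  fin_cases i <;> fin_cases j <;> rfl

theorem matZ_mulL (A B : List (List ℕ)) : matZ (mulL A B) = matZ A * matZ B := by
  ext i j
  simp only [matZ, Matrix.mul_apply, Fin.sum_univ_seven]
  rw [ent_mulL, ZMod.natCast_mod]
  push_cast
  rfl

/-- the identity table. -/
def idL : List (List ℕ) :=
  (List.range 7).map (fun i => (List.range 7).map (fun j => if i = j then 1 else 0))

theorem matZ_idL : matZ idL = 1 := by
  ext i j
  fin_cases i <;> fin_cases j <;> decide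

/-- the transpose of a table. -/
def transpL (A : List (List ℕ)) : List (List ℕ) :=
  (List.range 7).map (fun i => (List.range 7).map (fun j => ent A j i))

theorem ent_transpL (A : List (List ℕ)) (i j : Fin 7) : ent (transpL A) i j = ent A j i := by
  fin_cases i <;> fin_cases j <;> rfl

theorem matZ_transpL (A : List (List ℕ)) : matZ (transpL A) = (matZ A).transpose := by
  ext i j
  simp only [matZ, Matrix.transpose_apply]
  rw [ent_transpL]

/-- the product of the tables of a word. -/
def prodL {α : Type} (tabs : α → List (List ℕ)) : List α → List (List ℕ)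
  | [] => idL
  | l :: W => mulL (tabs l) (prodL tabs W)

theorem matZ_prodL {α : Type} (tabs : α → List (List ℕ)) (W : List α) :
    matZ (prodL tabs W) = (W.map (fun l => matZ (tabs l))).prod := by
  induction W with
  | nil => simp [prodL, matZ_idL]
  | cons l W ih => rw [prodL, matZ_mulL, ih, List.map_cons, List.prod_cons]

theorem matZ_ne (A B : List (List ℕ)) (i j : Fin 7) (h : ent A i j % 3 ≠ ent B i j % 3) :
    matZ A ≠ matZ B := by
  intro e
  apply h
  have h1 := congrFun (congrFun e i) j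
  unfold matZ at h1
  exact (ZMod.natCast_eq_natCast_iff' _ _ 3).mp h1

/-- a matrix which preserves a bilinear form preserves its values. -/
theorem form_pres {n : Type*} [Fintype n] [DecidableEq n] {R : Type*} [CommRing R]
    (M S : Matrix n n R) (h : M.transpose * S * M = S) (w : n → R) :
    (M.mulVec w) ⬝ᵥ (S.mulVec (M.mulVec w)) = w ⬝ᵥ (S.mulVec w) := by
  rw [Matrix.mulVec_mulVec, Matrix.dotProduct_mulVec, Matrix.vecMul_mulVec, ← mul_assoc, h,
    ← Matrix.dotProduct_mulVec]

/-- the quadratic form in coordinates. -/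
def Q7 (w : Fin 7 → ZMod 3) : ZMod 3 := w 0 ^ 2 + (w 1 * w 4 + w 2 * w 5 + w 3 * w 6)

/-- the table of the bilinear form. -/
def SL : List (List ℕ) := [[2, 0, 0, 0, 0, 0, 0], [0, 0, 0, 0, 1, 0, 0], [0, 0, 0, 0, 0, 1, 0],
  [0, 0, 0, 0, 0, 0, 1], [0, 1, 0, 0, 0, 0, 0], [0, 0, 1, 0, 0, 0, 0], [0, 0, 0, 1, 0, 0, 0]]

/-- the matrix of the bilinear form. -/
def S7 : Matrix (Fin 7) (Fin 7) (ZMod 3) :=
  !![2, 0, 0, 0, 0, 0, 0; 0, 0, 0, 0, 1, 0, 0; 0, 0, 0, 0, 0, 1, 0; 0, 0, 0, 0, 0, 0, 1;
     0, 1, 0, 0, 0, 0, 0; 0, 0, 1, 0, 0, 0, 0; 0, 0, 0, 1, 0, 0, 0]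

theorem matZ_SL : matZ SL = S7 := by
  ext i j
  fin_cases i <;> fin_cases j <;> decide

theorem q7_eq (w : Fin 7 → ZMod 3) : Q7 w = 2 * (w ⬝ᵥ (S7.mulVec w)) := by
  have h3 : (3 : ZMod 3) = 0 := by decide
  simp only [Q7, S7, dotProduct, Matrix.mulVec, Fin.sum_univ_seven, Matrix.of_apply,
    Matrix.cons_val', Matrix.cons_val_zero, Matrix.cons_val_one, Matrix.cons_val]
  linear_combination (-(w 0 ^ 2 + w 1 * w 4 + w 2 * w 5 + w 3 * w 6)) * h3

/-- a table whose matrix preserves the bilinear form preserves the quadratic form. -/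
theorem q7_pres (T : List (List ℕ)) (h : mulL (mulL (transpL T) SL) T = SL)
    (w : Fin 7 → ZMod 3) : Q7 ((matZ T).mulVec w) = Q7 w := by
  have h1 : (matZ T).transpose * S7 * matZ T = S7 := by
    rw [← matZ_SL, ← matZ_transpL, ← matZ_mulL, ← matZ_mulL, h]
  rw [q7_eq, q7_eq, form_pres (matZ T) S7 h1 w]

end Cfsg.Agent.Lib.Helper13.F3M
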