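import Mathlib

set_option autoImplicit false

/-!
Vectors and matrices of size nine over a field of characteristic two with an element `ω` such
that `ω ^ 2 + ω + 1 = 0`, coded by natural numbers (two bits for each coordinate: `0`, `1`, `ω`,
`ω + 1`), and the evaluation of products of matrices on coded vectors.
-/

namespace Cfsg.Agent.Lib.Helper13.F4

variable {F : Type*} [Field F]

/-- the element coded by two bits. -/
def dec2 (ω : F) (c : ℕ) : F := cond (c.testBit 1) ω 0 + cond (c.testBit 0) 1 0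

/-- the coordinate `i` of the vector coded by `v`. -/
def decN (ω : F) (v : ℕ) (i : ℕ) : F :=
  cond (v.testBit (2 * i + 1)) ω 0 + cond (v.testBit (2 * i)) 1 0

/-- the code of the coordinate `i`. -/
def cd (v i : ℕ) : ℕ := (v >>> (2 * i)) % 4

theorem cd_lt (v i : ℕ) : cd v i < 4 := Nat.mod_lt _ (by norm_num)

theorem decN_eq (ω : F) (v i : ℕ) : decN ω v i = dec2 ω (cd v i) := by
  unfold decN dec2 cd
  have h4 : (4 : ℕ) = 2 ^ 2 := by norm_num
  rw [h4, Nat.testBit_mod_two_pow, Nat.testBit_mod_two_pow, Nat.testBit_shiftRight,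
    Nat.testBit_shiftRight]
  simp

theorem cond_xor_add [CharP F 2] (x y : Bool) (t : F) :
    cond (x ^^ y) t 0 = cond x t 0 + cond y t 0 := by
  have h : t + t = 0 := CharTwo.add_self_eq_zero t
  cases x <;> cases y <;> simp [h]

theorem decN_xor [CharP F 2] (ω : F) (a b i : ℕ) :
    decN ω (a ^^^ b) i = decN ω a i + decN ω b i := by
  unfold decN
  rw [Nat.testBit_xor, Nat.testBit_xor, cond_xor_add, cond_xor_add]
  abel

theorem decN_zero (ω : F) (i : ℕ) : decN ω 0 i = 0 := by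
  unfold decN; simp

/-- multiplication of codes. -/
def mul4 (c d : ℕ) : ℕ :=
  match c, d with
  | 0, _ => 0
  | _, 0 => 0
  | 1, d => d
  | c, 1 => c
  | 2, 2 => 3
  | 2, 3 => 1
  | 3, 2 => 1
  | _, _ => 2

theorem dec2_vals (ω : F) : dec2 ω 0 = 0 ∧ dec2 ω 1 = 1 ∧ dec2 ω 2 = ω ∧ dec2 ω 3 = ω + 1 := by
  refine ⟨?_, ?_, ?_, ?_⟩ <;> simp [dec2, Nat.testBit]

theorem dec2_mul4 [CharP F 2] (ω : F) (hω : ω ^ 2 + ω + 1 = 0) (c d : ℕ) (hc : c < 4)
    (hd : d < 4) : dec2 ω (mul4 c d) = dec2 ω c * dec2 ω d := by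
  obtain ⟨v0, v1, v2, v3⟩ := dec2_vals ω
  have h2 : (2 : F) = 0 := CharTwo.two_eq_zero
  interval_cases c <;> interval_cases d <;> simp only [mul4, v0, v1, v2, v3] <;>
    first
      | ring1
      | linear_combination (-1 : F) * hω + (ω + 1) * h2
      | linear_combination (-1 : F) * hω + h2
      | linear_combination (-1 : F) * hω

/-! ### tables -/

/-- the table check: the entries `4 j + c` are the multiples by the codes `c` of the column
`j`, which is the entry `4 j + 1`. -/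
def tabOK (T : List ℕ) : Bool :=
  (List.range 9).all (fun j => (List.range 4).all (fun c => (List.range 9).all (fun i =>
    Nat.beq (cd (T.getD (4 * j + c) 0) i) (mul4 c (cd (T.getD (4 * j + 1) 0) i)))))

theorem tab_mul [CharP F 2] (ω : F) (hω : ω ^ 2 + ω + 1 = 0) (T : List ℕ)
    (hT : tabOK T = true) (j c i : ℕ) (hj : j < 9) (hc : c < 4) (hi : i < 9) :
    decN ω (T.getD (4 * j + c) 0) i = dec2 ω c * decN ω (T.getD (4 * j + 1) 0) i := by
  simp only [tabOK, List.all_eq_true, List.mem_range] at hT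
  have h := Nat.eq_of_beq_eq_true (hT j hj c hc i hi)
  rw [decN_eq, decN_eq, h, dec2_mul4 ω hω _ _ hc (cd_lt _ _)]

/-- the image of a coded vector under the matrix of a table (first `n` columns). -/
def mvc (T : List ℕ) (v : ℕ) : ℕ → ℕ
  | 0 => 0
  | j + 1 => mvc T v j ^^^ T.getD (4 * j + cd v j) 0

/-- the matrix of a table. -/
def matOf (ω : F) (T : List ℕ) : Matrix (Fin 9) (Fin 9) F :=
  fun i j => decN ω (T.getD (4 * (j : ℕ) + 1) 0) i

/-- the vector of a code. -/
def vecOf (ω : F) (v : ℕ) : Fin 9 → F := fun i => decN ω v i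

theorem mvc_sum [CharP F 2] (ω : F) (hω : ω ^ 2 + ω + 1 = 0) (T : List ℕ)
    (hT : tabOK T = true) (v i : ℕ) (hi : i < 9) : ∀ n ≤ 9,
    decN ω (mvc T v n) i =
      ∑ j ∈ Finset.range n, decN ω (T.getD (4 * j + 1) 0) i * decN ω v j
  | 0, _ => by simp [mvc, decN_zero]
  | n + 1, hn => by
    rw [mvc, decN_xor, mvc_sum ω hω T hT v i hi n (by omega), Finset.sum_range_succ,
      tab_mul ω hω T hT n (cd v n) i (by omega) (cd_lt _ _) hi, decN_eq ω v n, mul_comm (dec2 ω _)]

theorem matOf_mulVec [CharP F 2] (ω : F) (hω : ω ^ 2 + ω + 1 = 0) (T : List ℕ)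
    (hT : tabOK T = true) (v : ℕ) :
    (matOf ω T).mulVec (vecOf ω v) = vecOf ω (mvc T v 9) := by
  ext i
  rw [vecOf, mvc_sum ω hω T hT v i i.2 9 le_rfl,
    ← Fin.sum_univ_eq_sum_range (fun j => decN ω (T.getD (4 * j + 1) 0) i * decN ω v j) 9]
  rfl

/-! ### words -/

/-- the image of a coded vector under the product of the matrices of a word. -/
def wv {α : Type} (tabs : α → List ℕ) : List α → ℕ → ℕ
  | [], v => v
  | l :: W, v => mvc (tabs l) (wv tabs W v) 9

theorem prod_mulVec [CharP F 2] (ω : F) (hω : ω ^ 2 + ω + 1 = 0) {α : Type}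
    (tabs : α → List ℕ) (hT : ∀ l, tabOK (tabs l) = true) (W : List α) (v : ℕ) :
    ((W.map (fun l => matOf ω (tabs l))).prod).mulVec (vecOf ω v) = vecOf ω (wv tabs W v) := by
  induction W with
  | nil => simp [wv]
  | cons l W ih =>
    rw [List.map_cons, List.prod_cons, ← Matrix.mulVec_mulVec, ih,
      matOf_mulVec ω hω _ (hT l)]
    rfl

theorem vecOf_shift (ω : F) (k j : ℕ) (hk : k < 4) (hj : j < 9) :
    vecOf ω (k <<< (2 * j)) = dec2 ω k • (Pi.single (⟨j, hj⟩ : Fin 9) (1 : F)) := by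
  ext i
  simp only [vecOf, decN, Nat.testBit_shiftLeft, Pi.smul_apply, smul_eq_mul, Pi.single_apply]
  by_cases h : i = ⟨j, hj⟩
  · subst h
    simp [dec2]
  · have hij : (i : ℕ) ≠ j := fun e => h (Fin.ext e)
    rw [if_neg h, mul_zero]
    rcases Nat.lt_or_gt_of_ne hij with hlt | hgt
    · simp [show ¬ (2 * j ≤ 2 * (i : ℕ) + 1) by omega, show ¬ (2 * j ≤ 2 * (i : ℕ)) by omega]
    · have h1 : k.testBit (2 * (i : ℕ) + 1 - 2 * j) = false :=
        Nat.testBit_lt_two_pow (lt_of_lt_of_le hk (by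
          calc 4 = 2 ^ 2 := by norm_num
            _ ≤ 2 ^ (2 * (i : ℕ) + 1 - 2 * j) := Nat.pow_le_pow_right (by norm_num) (by omega)))
      have h2 : k.testBit (2 * (i : ℕ) - 2 * j) = false :=
        Nat.testBit_lt_two_pow (lt_of_lt_of_le hk (by
          calc 4 = 2 ^ 2 := by norm_num
            _ ≤ 2 ^ (2 * (i : ℕ) - 2 * j) := Nat.pow_le_pow_right (by norm_num) (by omega)))
      simp [h1, h2]

/-- the word acts as the scalar with code `k` on the basis vectors. -/
def scalOK {α : Type} (tabs : α → List ℕ) (W : List α) (k : ℕ) : Bool :=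
  (List.range 9).all (fun j => Nat.beq (wv tabs W (1 <<< (2 * j))) (k <<< (2 * j)))

theorem prod_eq_smul_one [CharP F 2] (ω : F) (hω : ω ^ 2 + ω + 1 = 0) {α : Type}
    (tabs : α → List ℕ) (hT : ∀ l, tabOK (tabs l) = true) (W : List α) (k : ℕ) (hk : k < 4)
    (h : scalOK tabs W k = true) :
    (W.map (fun l => matOf ω (tabs l))).prod = dec2 ω k • (1 : Matrix (Fin 9) (Fin 9) F) := by
  simp only [scalOK, List.all_eq_true, List.mem_range] at h
  ext i j
  have h1 := prod_mulVec ω hω tabs hT W (1 <<< (2 * (j : ℕ)))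
  rw [Nat.eq_of_beq_eq_true (h j j.2), vecOf_shift ω 1 j (by norm_num) j.2,
    vecOf_shift ω k j hk j.2] at h1
  have h2 := congrFun h1 i
  have hd1 : dec2 ω 1 = 1 := (dec2_vals ω).2.1
  rw [hd1, one_smul, Matrix.mulVec_single_one] at h2
  rw [Matrix.smul_apply, Matrix.one_apply, ← Matrix.col_apply (A := (W.map fun l => matOf ω (tabs l)).prod), h2,
    Pi.smul_apply, Pi.single_apply]

end Cfsg.Agent.Lib.Helper13.F4
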