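import Cfsg.Agent.Lib.Helper13.F4Vec
import Cfsg.Prelude.Def_Classical

set_option autoImplicit false

/-!
Vectors and matrices of any size over a field of characteristic two with an element `ω` such
that `ω ^ 2 + ω + 1 = 0`, coded by natural numbers (two bits for each coordinate), the
evaluation of products of matrices on coded vectors, and hermitian involutions.
-/

namespace Cfsg.Agent.Lib.Helper13.F4N

open Cfsg.Agent.Lib.Helper13.F4

variable {F : Type*} [Field F]

/-- the table check: the entries `4 j + c` are the multiples by the codes `c` of the column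
`j`, which is the entry `4 j + 1`. -/
def tabOK (n : ℕ) (T : List ℕ) : Bool :=
  (List.range n).all (fun j => (List.range 4).all (fun c => (List.range n).all (fun i =>
    Nat.beq (cd (T.getD (4 * j + c) 0) i) (mul4 c (cd (T.getD (4 * j + 1) 0) i)))))

theorem tab_mul [CharP F 2] (n : ℕ) (ω : F) (hω : ω ^ 2 + ω + 1 = 0) (T : List ℕ)
    (hT : tabOK n T = true) (j c i : ℕ) (hj : j < n) (hc : c < 4) (hi : i < n) :
    decN ω (T.getD (4 * j + c) 0) i = dec2 ω c * decN ω (T.getD (4 * j + 1) 0) i := by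
  simp only [tabOK, List.all_eq_true, List.mem_range] at hT
  have h := Nat.eq_of_beq_eq_true (hT j hj c hc i hi)
  rw [decN_eq, decN_eq, h, dec2_mul4 ω hω _ _ hc (cd_lt _ _)]

/-- the matrix of a table. -/
def matOf (n : ℕ) (ω : F) (T : List ℕ) : Matrix (Fin n) (Fin n) F :=
  fun i j => decN ω (T.getD (4 * (j : ℕ) + 1) 0) i

/-- the vector of a code. -/
def vecOf (n : ℕ) (ω : F) (v : ℕ) : Fin n → F := fun i => decN ω v i

theorem mvc_sum [CharP F 2] (n : ℕ) (ω : F) (hω : ω ^ 2 + ω + 1 = 0) (T : List ℕ)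
    (hT : tabOK n T = true) (v i : ℕ) (hi : i < n) : ∀ m ≤ n,
    decN ω (mvc T v m) i =
      ∑ j ∈ Finset.range m, decN ω (T.getD (4 * j + 1) 0) i * decN ω v j
  | 0, _ => by simp [mvc, decN_zero]
  | m + 1, hm => by
    rw [mvc, decN_xor, mvc_sum n ω hω T hT v i hi m (by omega), Finset.sum_range_succ,
      tab_mul n ω hω T hT m (cd v m) i (by omega) (cd_lt _ _) hi, decN_eq ω v m,
      mul_comm (dec2 ω _)]

theorem matOf_mulVec [CharP F 2] (n : ℕ) (ω : F) (hω : ω ^ 2 + ω + 1 = 0) (T : List ℕ)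
    (hT : tabOK n T = true) (v : ℕ) :
    (matOf n ω T).mulVec (vecOf n ω v) = vecOf n ω (mvc T v n) := by
  ext i
  rw [vecOf, mvc_sum n ω hω T hT v i i.2 n le_rfl,
    ← Fin.sum_univ_eq_sum_range (fun j => decN ω (T.getD (4 * j + 1) 0) i * decN ω v j) n]
  rfl

/-- the image of a coded vector under the product of the matrices of a word. -/
def wv (n : ℕ) {α : Type} (tabs : α → List ℕ) : List α → ℕ → ℕ
  | [], v => v
  | l :: W, v => mvc (tabs l) (wv n tabs W v) n

theorem prod_mulVec [CharP F 2] (n : ℕ) (ω : F) (hω : ω ^ 2 + ω + 1 = 0) {α : Type}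
    (tabs : α → List ℕ) (hT : ∀ l, tabOK n (tabs l) = true) (W : List α) (v : ℕ) :
    ((W.map (fun l => matOf n ω (tabs l))).prod).mulVec (vecOf n ω v) =
      vecOf n ω (wv n tabs W v) := by
  induction W with
  | nil => simp [wv]
  | cons l W ih =>
    rw [List.map_cons, List.prod_cons, ← Matrix.mulVec_mulVec, ih,
      matOf_mulVec n ω hω _ (hT l)]
    rfl

theorem vecOf_shift (n : ℕ) (ω : F) (k j : ℕ) (hk : k < 4) (hj : j < n) :
    vecOf n ω (k <<< (2 * j)) = dec2 ω k • (Pi.single (⟨j, hj⟩ : Fin n) (1 : F)) := by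
  ext i
  simp only [vecOf, decN, Nat.testBit_shiftLeft, Pi.smul_apply, smul_eq_mul, Pi.single_apply]
  by_cases h : i = ⟨j, hj⟩
  · subst h
    simp [dec2]
  · have hij : (i : ℕ) ≠ j := fun e => h (Fin.ext e)
    rw [if_neg h, mul_zero]
    rcases Nat.lt_or_gt_of_ne hij with hlt | hgt
    · simp [show ¬ (2 * j ≤ 2 * (i : ℕ) + 1) by omega, show ¬ (2 * j ≤ 2 * (i : ℕ)) by omega]
    · have h1 : k.testBit (2 * (i : ℕ) + 1 - 2 * j) = false :=
        Nat.testBit_lt_two_pow (lt_of_lt_of_le hk (by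
          calc 4 = 2 ^ 2 := by norm_num
            _ ≤ 2 ^ (2 * (i : ℕ) + 1 - 2 * j) := Nat.pow_le_pow_right (by norm_num) (by omega)))
      have h2 : k.testBit (2 * (i : ℕ) - 2 * j) = false :=
        Nat.testBit_lt_two_pow (lt_of_lt_of_le hk (by
          calc 4 = 2 ^ 2 := by norm_num
            _ ≤ 2 ^ (2 * (i : ℕ) - 2 * j) := Nat.pow_le_pow_right (by norm_num) (by omega)))
      simp [h1, h2]

/-- the word acts as the scalar with code `k` on the basis vectors. -/
def scalOK (n : ℕ) {α : Type} (tabs : α → List ℕ) (W : List α) (k : ℕ) : Bool :=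
  (List.range n).all (fun j => Nat.beq (wv n tabs W (1 <<< (2 * j))) (k <<< (2 * j)))

theorem prod_eq_smul_one [CharP F 2] (n : ℕ) (ω : F) (hω : ω ^ 2 + ω + 1 = 0) {α : Type}
    (tabs : α → List ℕ) (hT : ∀ l, tabOK n (tabs l) = true) (W : List α) (k : ℕ) (hk : k < 4)
    (h : scalOK n tabs W k = true) :
    (W.map (fun l => matOf n ω (tabs l))).prod = dec2 ω k • (1 : Matrix (Fin n) (Fin n) F) := by
  simp only [scalOK, List.all_eq_true, List.mem_range] at h
  ext i j
  have h1 := prod_mulVec n ω hω tabs hT W (1 <<< (2 * (j : ℕ)))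
  rw [Nat.eq_of_beq_eq_true (h j j.2), vecOf_shift n ω 1 j (by norm_num) j.2,
    vecOf_shift n ω k j hk j.2] at h1
  have h2 := congrFun h1 i
  have hd1 : dec2 ω 1 = 1 := (dec2_vals ω).2.1
  rw [hd1, one_smul, Matrix.mulVec_single_one] at h2
  rw [Matrix.smul_apply, Matrix.one_apply,
    ← Matrix.col_apply (A := (W.map fun l => matOf n ω (tabs l)).prod), h2,
    Pi.smul_apply, Pi.single_apply]

/-! ### hermitian involutions -/

section herm

variable {K : Type} [Field K] [CharP K 2]

theorem det_eq_one_of_sq (n : ℕ) (M : Matrix (Fin n) (Fin n) K) (h : M * M = 1) :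
    M.det = 1 := by
  have h1 : M.det * M.det = 1 := by rw [← Matrix.det_mul, h, Matrix.det_one]
  have h2 : (2 : K) = 0 := CharTwo.two_eq_zero
  have h3 : (M.det - 1) ^ 2 = 0 := by
    have : (M.det - 1) ^ 2 = M.det * M.det - 2 * M.det + 1 := by ring
    rw [this, h1, h2]; ring_nf; linear_combination h2
  have h4 := pow_eq_zero_iff (n := 2) (by norm_num) |>.mp h3
  linear_combination h4

theorem herm_pres (n : ℕ) (M : Matrix (Fin n) (Fin n) K) (hMM : M * M = 1)
    (hH : ∀ i j, M i j ^ 2 = M j i) (u v : Fin n → K) :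
    Cfsg.hermForm n K 2 (M.mulVec u) (M.mulVec v) = Cfsg.hermForm n K 2 u v := by
  have : ExpChar K 2 := ExpChar.prime Nat.prime_two
  have h1 : ∀ i, (M.mulVec v i) ^ 2 = (M.transpose.mulVec (fun j => v j ^ 2)) i := by
    intro i
    simp only [Matrix.mulVec, dotProduct, Matrix.transpose_apply]
    rw [sum_pow_char 2]
    apply Finset.sum_congr rfl
    intro j _
    rw [mul_pow, hH]
  unfold Cfsg.hermForm
  simp_rw [h1]
  have h2 : ∑ i, M.mulVec u i * M.transpose.mulVec (fun j => v j ^ 2) i =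
      dotProduct (M.mulVec u) (M.transpose.mulVec (fun j => v j ^ 2)) := rfl
  have h3 : ∑ i, u i * v i ^ 2 = dotProduct u (fun j => v j ^ 2) := rfl
  rw [h2, h3, dotProduct_comm, Matrix.dotProduct_mulVec, ← Matrix.mulVec_transpose,
    Matrix.mulVec_mulVec, ← Matrix.transpose_mul, hMM, Matrix.transpose_one, Matrix.one_mulVec,
    dotProduct_comm]

/-- the Frobenius map on codes. -/
def frob4 (c : ℕ) : ℕ :=
  match c with
  | 2 => 3
  | 3 => 2
  | c => c

theorem dec2_frob (ω : K) (hω : ω ^ 2 + ω + 1 = 0) (c : ℕ) (hc : c < 4) :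
    dec2 ω (frob4 c) = dec2 ω c ^ 2 := by
  obtain ⟨v0, v1, v2, v3⟩ := dec2_vals ω
  have h2 : (2 : K) = 0 := CharTwo.two_eq_zero
  interval_cases c <;> simp only [frob4, v0, v1, v2, v3] <;>
    first
      | ring1
      | linear_combination (-1 : K) * hω + (ω + 1) * h2
      | linear_combination (-1 : K) * hω

/-- the matrix of a table is hermitian. -/
def hermOK (n : ℕ) (T : List ℕ) : Bool :=
  (List.range n).all (fun i => (List.range n).all (fun j =>
    Nat.beq (cd (T.getD (4 * i + 1) 0) j) (frob4 (cd (T.getD (4 * j + 1) 0) i))))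

theorem matOf_herm (n : ℕ) (ω : K) (hω : ω ^ 2 + ω + 1 = 0) (T : List ℕ)
    (h : hermOK n T = true) (i j : Fin n) : matOf n ω T i j ^ 2 = matOf n ω T j i := by
  simp only [hermOK, List.all_eq_true, List.mem_range] at h
  have h1 := Nat.eq_of_beq_eq_true (h i i.2 j j.2)
  unfold matOf
  rw [decN_eq, decN_eq, h1, dec2_frob ω hω _ (cd_lt _ _)]

end herm

end Cfsg.Agent.Lib.Helper13.F4N
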