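import Cfsg.Agent.Lib.Helper13.HeN136Data
import Cfsg.Agent.Lib.Helper13.CosetPrim
set_option autoImplicit false
set_option maxRecDepth 100000

open Cfsg.Agent.Lib.Helper13.CE

namespace Cfsg.Agent.Lib.Helper13.HeNPrim

def orbs : List (ℕ × ℕ × List ℕ × List (Fin 4) × List ℕ) := [(1, 60, [0, 1, 2, 3, 0, 1, 2, 3, 0, 2], [1], [0, 1, 2, 3, 4, 0, 1, 2, 3, 4, 0, 1]),
  (61, 75, [0, 1, 2, 3, 0, 1, 2, 3], [3, 1], [0, 1, 2, 3, 4, 0, 1, 2, 3, 4, 0, 1, 3])]

theorem hcov : rngCover 136 1 orbs = true := by decide +kernel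
theorem hprim : orbs.all (primOK HeN136.par.nets 136 HeN136.par.subs) = true := by decide +kernel

end Cfsg.Agent.Lib.Helper13.HeNPrim
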