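import Cfsg.Agent.Lib.Helper13.HeNSData
set_option autoImplicit false
set_option maxRecDepth 100000

open Cfsg.Agent.Lib.Helper13.CE

namespace Cfsg.Agent.Lib.Helper13.HeNS

theorem hchainW : chainW HeN136.nets 136 [] levelsW = true := by decide +kernel
theorem hprodW : (levelsW.map (fun l => l.2.2.2)).prod = 979200 := by decide +kernel
theorem hwit : HeN136.lettersW.all (fun x => witOK HeN136.nets 8 17 x (wit x)) = true := by decide +kernel

end Cfsg.Agent.Lib.Helper13.HeNS
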