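import Cfsg.Agent.Lib.Helper13.HeNP
import Cfsg.Agent.Lib.Helper13.HeNSChk
import Cfsg.Agent.Lib.Helper13.HeNPrim
set_option autoImplicit false
set_option maxRecDepth 100000

/-!
The group presented in `HeNP` has order 979200, acts faithfully and primitively on 136 points,
and is simple.
-/

open Cfsg.Agent.Lib.Helper13.CE Cfsg.Spor Cfsg.Agent.Lib.Helper13.HeN

namespace Cfsg.Agent.Lib.Helper13.HeNO

/-- the presented group. -/
abbrev P : Type := HeN.Grp

instance finite : Finite P := HeN.card_le.1

/-- the action on the 136 cosets is faithful, and the order of the group. -/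
theorem faithful : ∃ (X : Act (Fin 4) P 136 8) (f : P ⧸ HeN.HM ≃ Fin 136),
    X.nets = HeN136.par.nets ∧
    (∀ W : List (Fin 4), X.ev W = PresentedGroup.mk HeN.Rel ((W.map FreeGroup.of).prod)) ∧
    (∀ g, f (QuotientGroup.mk g) = X.φ g 0) ∧ Function.Injective X.φ ∧
    Nat.card P = 979200 := by
  obtain ⟨X, f, hnets, hev, hf⟩ := HeN.main136
  have h := X.injective_of_chainW HeNS.levelsW (by rw [hnets]; exact HeNS.hchainW)
    979200 (le_trans HeN.card_le.2 (by norm_num)) (by rw [HeNS.hprodW])
  exact ⟨X, f, hnets, hev, hf, h.1, h.2⟩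

theorem card : Nat.card P = 979200 := by
  obtain ⟨X, f, -, -, -, -, h⟩ := faithful
  exact h

theorem simple : IsSimpleGroup P := by
  obtain ⟨X, f, hnets, hev, hf, hinj, hcard⟩ := faithful
  have hH : HeN.HM = Subgroup.closure {g | ∃ W ∈ HeN136.par.subs, g = X.ev W} := by
    unfold HeN.HM
    congr 1
    ext g
    constructor
    · rintro ⟨W, hW, rfl⟩; exact ⟨W, hW, (hev W).symm⟩
    · rintro ⟨W, hW, rfl⟩; exact ⟨W, hW, hev W⟩
  have hs : ∀ x, X.s x = PresentedGroup.of x := by
    intro x
    have := hev [x]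
    simp only [Act.ev, List.map_cons, List.map_nil, List.prod_cons, List.prod_nil,
      mul_one] at this
    exact this
  have hgen : Subgroup.closure (Set.range X.s) = ⊤ := by
    have h1 : X.s = PresentedGroup.of (rels := HeN.Rel) := funext hs
    rw [h1]
    exact PresentedGroup.closure_range_of _
  have hprim := X.isPreprimitive_of_orbs HeN.HM f hf HeN136.par.subs hH HeNPrim.orbs
    HeNPrim.hcov (by rw [hnets]; exact HeNPrim.hprim)
  refine X.isSimpleGroup_of_prime hinj hprim hgen 17 (by norm_num) ?_ (by rw [hcard]; norm_num)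
    HeNS.wit ?_
  · intro j hj
    rw [hcard] at hj
    have : j = 7200 := by omega
    rw [this]; norm_num
  · intro x
    have h := List.all_eq_true.mp HeNS.hwit x (HeN.hletters136 x)
    rw [hnets]; exact h

end Cfsg.Agent.Lib.Helper13.HeNO
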