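import Cfsg.Agent.Lib.Helper13.J3K3A
import Cfsg.Agent.Lib.Helper13.J3K3B
import Cfsg.Agent.Lib.Helper13.J3K2P
import Cfsg.Agent.Lib.Helper13.CosetE7
set_option autoImplicit false
set_option maxRecDepth 100000

open Cfsg.Agent.Lib.Helper13.CE Cfsg.Spor

namespace Cfsg.Agent.Lib.Helper13.J3K3

def edges : List (Fin 3 × ℕ × Fin 3) :=
  [(0, 17, 1), (1, 4, 2)]

def extra : List (FreeGroup (Fin 3)) := [
  (FreeGroup.of 0 * FreeGroup.of 1 * FreeGroup.of 2 * FreeGroup.of 1 * FreeGroup.of 2) ^ 3,
  (FreeGroup.of 0 * FreeGroup.of 1 * FreeGroup.of 0 * FreeGroup.of 2 * FreeGroup.of 1 * FreeGroup.of 2) ^ 5 ]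

theorem hnodes : ∀ x : Fin 3, x ∈ coxNodes edges := by decide
theorem hletters : ∀ x : Fin 3, x ∈ par.letters := by decide
theorem hidx : Function.Injective par.idx := fun _ _ h => Fin.ext h

theorem hextra : List.Forall₂ (fun r W => ∀ (K : Type) [Group K] (s : Fin 3 → K),
    (∀ x, s x * s x = 1) → FreeGroup.lift s r = (W.map s).prod) extra extraW := by
  have hinv : ∀ (K : Type) [Group K] (s : Fin 3 → K), (∀ x, s x * s x = 1) → ∀ x, (s x)⁻¹ = s x :=
    fun K _ s hs x => inv_eq_of_mul_eq_one_right (hs x)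
  refine List.Forall₂.cons ?_ (List.Forall₂.cons ?_ (List.Forall₂.nil))
  all_goals
    intro K _ s hs
    have hi := hinv K s hs
    simp only [map_mul, map_inv, FreeGroup.lift_apply_of, List.map_cons, List.map_nil,
      List.prod_cons, List.prod_nil, pow_succ, pow_zero, one_mul, mul_one, mul_inv_rev, hi, mul_assoc]

theorem hrels : par.rels = relsGen edges par.letters extraW := by decide +kernel

/-- the group presented by the sub-diagram. -/
abbrev Grp : Type := PresentedGroup (coxRelators edges ∪ {r | r ∈ extra})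

theorem main : ∃ (X : Act (Fin 3) Grp 240 8)
    (f : Grp ⧸ Subgroup.closure {g | ∃ W ∈ par.subs, g = PresentedGroup.mk
      (coxRelators edges ∪ {r | r ∈ extra}) ((W.map FreeGroup.of).prod)} ≃ Fin 240),
    X.nets = par.nets ∧
    (∀ W : List (Fin 3), X.ev W = PresentedGroup.mk (coxRelators edges ∪ {r | r ∈ extra})
      ((W.map FreeGroup.of).prod)) ∧
    (∀ g, f (QuotientGroup.mk g) = X.φ g 0) :=
  cox_main2 edges extra 240 8 par extraW hnodes hletters hidx hextra hrels hstat 3 tree stepsA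
    parB stepsB 26 hA rfl hB

/-- the sub-diagram. -/
def esub : Fin 2 → Fin 3 := ![0, 1]

theorem hsubNodes : ∀ x ∈ coxNodes J3K2.edges, esub x ∈ coxNodes edges := by decide

theorem hsubLab : ∀ x ∈ coxNodes J3K2.edges, ∀ y ∈ coxNodes J3K2.edges,
    coxLabel J3K2.edges x y = coxLabel edges (esub x) (esub y) := by decide

theorem hsubExtra : ∀ r ∈ J3K2.extra, PresentedGroup.mk (coxRelators edges ∪ {r | r ∈ extra})
    (FreeGroup.map esub r) = 1 := by
  intro r hr
  exact absurd hr (by simp [J3K2.extra])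

theorem card_le : Finite Grp ∧ Nat.card Grp ≤ 240 * (34) := by
  obtain ⟨X, f, -, -, -⟩ := main
  exact card_le_of_presHom edges extra J3K2.edges J3K2.extra esub hsubNodes hsubLab hsubExtra
    _ J3K2.card_le.1 J3K2.card_le.2 par.subs (by decide) 240 f

end Cfsg.Agent.Lib.Helper13.J3K3
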