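import Cfsg.Agent.Lib.Helper13.HeNA
import Cfsg.Agent.Lib.Helper13.HeNB
import Cfsg.Agent.Lib.Helper13.HeN136A
import Cfsg.Agent.Lib.Helper13.HeN136B
import Cfsg.Agent.Lib.Helper13.J3K3P
set_option autoImplicit false
set_option maxRecDepth 100000

/-!
A presentation of a group of order at most `120 * 8160` on four involutions `a, b, c, y`: three
of them satisfy the relations of the presentation `J3K3` (of order at most 8160), and there are
three more relators.  The subgroup generated by `a, b, c` has index 120, and the subgroup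
generated by `a, c, baybyab, babycbab` has index 136.
-/

open Cfsg.Agent.Lib.Helper13.CE Cfsg.Spor

namespace Cfsg.Agent.Lib.Helper13.HeN

def edges : List (Fin 4 × ℕ × Fin 4) :=
  [(0, 17, 1), (1, 4, 2), (1, 5, 3)]

def extra : List (FreeGroup (Fin 4)) := [
  (FreeGroup.of 0 * FreeGroup.of 1 * FreeGroup.of 2 * FreeGroup.of 1 * FreeGroup.of 2) ^ 3,
  (FreeGroup.of 0 * FreeGroup.of 1 * FreeGroup.of 0 * FreeGroup.of 2 * FreeGroup.of 1 * FreeGroup.of 2) ^ 5,
  FreeGroup.of 3 * FreeGroup.of 1 * FreeGroup.of 2 * FreeGroup.of 0 * FreeGroup.of 1 * FreeGroup.of 3 * FreeGroup.of 2 * FreeGroup.of 0 * FreeGroup.of 1 * FreeGroup.of 2 * FreeGroup.of 0 * FreeGroup.of 1 * FreeGroup.of 2 * FreeGroup.of 0,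
  FreeGroup.of 3 * FreeGroup.of 1 * FreeGroup.of 0 * FreeGroup.of 1 * FreeGroup.of 3 * FreeGroup.of 0 * FreeGroup.of 1 * FreeGroup.of 0 * FreeGroup.of 1 * FreeGroup.of 3 * FreeGroup.of 0 * FreeGroup.of 1 * FreeGroup.of 0 * FreeGroup.of 1 * FreeGroup.of 0,
  FreeGroup.of 3 * FreeGroup.of 1 * FreeGroup.of 0 * FreeGroup.of 3 * FreeGroup.of 1 * FreeGroup.of 0 * FreeGroup.of 1 * FreeGroup.of 0 * FreeGroup.of 1 * FreeGroup.of 3 * FreeGroup.of 1 * FreeGroup.of 2 * FreeGroup.of 1 * FreeGroup.of 2 * FreeGroup.of 1 * FreeGroup.of 3 * FreeGroup.of 1 * FreeGroup.of 0 * FreeGroup.of 1 * FreeGroup.of 0 * FreeGroup.of 1 * FreeGroup.of 0 * FreeGroup.of 1 * FreeGroup.of 3 * FreeGroup.of 2 * FreeGroup.of 1 * FreeGroup.of 0 * FreeGroup.of 1 * FreeGroup.of 0 * FreeGroup.of 1 * FreeGroup.of 0 * FreeGroup.of 1 * FreeGroup.of 0 * FreeGroup.of 1 * FreeGroup.of 2 * FreeGroup.of 0 * FreeGroup.of 1 * FreeGroup.of 2 * FreeGroup.of 0 ]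

theorem hnodes : ∀ x : Fin 4, x ∈ coxNodes edges := by decide
theorem hletters : ∀ x : Fin 4, x ∈ par.letters := by decide
theorem hidx : Function.Injective par.idx := fun _ _ h => Fin.ext h
theorem hletters136 : ∀ x : Fin 4, x ∈ HeN136.par.letters := by decide
theorem hidx136 : Function.Injective HeN136.par.idx := fun _ _ h => Fin.ext h

theorem hextra : List.Forall₂ (fun r W => ∀ (K : Type) [Group K] (s : Fin 4 → K),
    (∀ x, s x * s x = 1) → FreeGroup.lift s r = (W.map s).prod) extra extraW := by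
  refine List.Forall₂.cons ?_ (List.Forall₂.cons ?_ (List.Forall₂.cons ?_ (List.Forall₂.cons ?_
    (List.Forall₂.cons ?_ (List.Forall₂.nil)))))
  all_goals
    intro K _ s hs
    simp only [map_mul, FreeGroup.lift_apply_of, List.map_cons, List.map_nil,
      List.prod_cons, List.prod_nil, pow_succ, pow_zero, one_mul, mul_one, mul_assoc]

theorem hextra136 : List.Forall₂ (fun r W => ∀ (K : Type) [Group K] (s : Fin 4 → K),
    (∀ x, s x * s x = 1) → FreeGroup.lift s r = (W.map s).prod) extra HeN136.extraW :=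
  hextra

theorem hrels : par.rels = relsGen edges par.letters extraW := by decide +kernel
theorem hrels136 : HeN136.par.rels = relsGen edges HeN136.par.letters HeN136.extraW := by
  decide +kernel

/-- the relators. -/
abbrev Rel : Set (FreeGroup (Fin 4)) := coxRelators edges ∪ {r | r ∈ extra}

/-- the presented group. -/
abbrev Grp : Type := PresentedGroup Rel

/-- the subgroup generated by `a, b, c`. -/
def HL : Subgroup Grp :=
  Subgroup.closure {g | ∃ W ∈ par.subs, g = PresentedGroup.mk Rel ((W.map FreeGroup.of).prod)}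

/-- the subgroup of index 136. -/
def HM : Subgroup Grp :=
  Subgroup.closure {g | ∃ W ∈ HeN136.par.subs,
    g = PresentedGroup.mk Rel ((W.map FreeGroup.of).prod)}

theorem main : ∃ (X : Act (Fin 4) Grp 120 7) (f : Grp ⧸ HL ≃ Fin 120),
    X.nets = par.nets ∧
    (∀ W : List (Fin 4), X.ev W = PresentedGroup.mk Rel ((W.map FreeGroup.of).prod)) ∧
    (∀ g, f (QuotientGroup.mk g) = X.φ g 0) :=
  cox_main2 edges extra 120 7 par extraW hnodes hletters hidx hextra hrels hstat 4 tree stepsA
    parB stepsB 50 hA rfl hB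

theorem main136 : ∃ (X : Act (Fin 4) Grp 136 8) (f : Grp ⧸ HM ≃ Fin 136),
    X.nets = HeN136.par.nets ∧
    (∀ W : List (Fin 4), X.ev W = PresentedGroup.mk Rel ((W.map FreeGroup.of).prod)) ∧
    (∀ g, f (QuotientGroup.mk g) = X.φ g 0) :=
  cox_main2 edges extra 136 8 HeN136.par HeN136.extraW hnodes hletters136 hidx136 hextra136
    hrels136 HeN136.hstat 4 HeN136.tree HeN136.stepsA HeN136.parB HeN136.stepsB 60 HeN136.hA rfl
    HeN136.hB

/-- the sub-diagram on `a, b, c`. -/
def esub : Fin 3 → Fin 4 := ![0, 1, 2]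

theorem hsubNodes : ∀ x ∈ coxNodes J3K3.edges, esub x ∈ coxNodes edges := by decide

theorem hsubLab : ∀ x ∈ coxNodes J3K3.edges, ∀ y ∈ coxNodes J3K3.edges,
    coxLabel J3K3.edges x y = coxLabel edges (esub x) (esub y) := by decide

theorem hsubExtra : ∀ r ∈ J3K3.extra, PresentedGroup.mk Rel (FreeGroup.map esub r) = 1 := by
  intro r hr
  apply PresentedGroup.one_of_mem
  right
  show _ ∈ extra
  simp only [J3K3.extra, List.mem_cons, List.mem_nil_iff, or_false] at hr
  rcases hr with rfl | rfl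
  · simp [extra, esub]
  · simp [extra, esub]

theorem card_le : Finite Grp ∧ Nat.card Grp ≤ 120 * (240 * 34) := by
  obtain ⟨X, f, -, -, -⟩ := main
  exact card_le_of_presHom edges extra J3K3.edges J3K3.extra esub hsubNodes hsubLab hsubExtra
    _ J3K3.card_le.1 J3K3.card_le.2 par.subs (by decide) 120 f

end Cfsg.Agent.Lib.Helper13.HeN
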