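import Cfsg.Agent.Lib.Helper13.HeN136Data
import Cfsg.Agent.Lib.Helper13.CosetBase
set_option autoImplicit false
set_option maxRecDepth 100000

open Cfsg.Agent.Lib.Helper13.CE

namespace Cfsg.Agent.Lib.Helper13.HeNS

def levelsW : List (List (List (Fin 4)) × ℕ × List ℕ × ℕ) := [([[0], [1], [2], [3]], 0, [1, 2, 3, 0, 1, 2, 3, 0, 1, 2, 3, 0, 1, 2, 3, 1], 136),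
  ([[0], [2], [1, 0, 3, 1, 3, 0, 1], [1, 0, 1, 3, 2, 1, 0, 1], [1, 3, 1, 2, 1, 3, 1], [1, 3, 1, 3, 0, 1, 3, 1]], 61, [0, 1, 2, 3, 4, 5, 0, 1, 2], 75),
  ([[0, 2, 1, 0, 3, 1, 3, 0, 1, 2, 0], [1, 3, 1, 2, 1, 3, 1, 0, 1, 3, 1, 2, 1, 3, 1, 2], [0, 2, 1, 0, 1, 3, 2, 1, 0, 1, 0, 1, 3, 1, 0, 3, 1, 3, 1, 0], [1, 0, 1, 3, 2, 1, 0, 3, 1, 3, 0, 2, 1, 3, 0, 1, 2, 3, 1, 0, 1], [0, 1, 3, 1, 3, 0, 1, 3, 1, 2, 1, 3, 1, 0, 3, 1, 3, 1, 0], [0, 1, 3, 1, 3, 0, 1, 3, 1, 0, 1, 0, 1, 2, 3, 1, 0, 1, 2, 0]], 62, [0, 1, 2, 3, 4, 5], 24),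
  ([[0, 1, 3, 1, 3, 0, 1, 3, 1, 0, 1, 0, 1, 2, 3, 1, 0, 1, 2, 0, 2, 1, 3, 1, 2, 1, 3, 1, 0, 1, 3, 1, 2, 1, 3, 1], [1, 0, 1, 3, 2, 1, 0, 3, 1, 3, 0, 2, 1, 3, 0, 1, 2, 3, 1, 0, 1, 0, 2, 1, 0, 3, 1, 3, 1, 3, 2, 1, 0, 1, 0, 2, 1, 3, 1, 0, 3, 1, 3, 1, 0, 1, 0, 1, 3, 2, 1, 0, 3, 1, 2, 0, 3, 1, 3, 0, 1, 2, 3, 1, 0, 1], [0, 2, 1, 0, 3, 1, 3, 0, 1, 2, 0, 1, 0, 1, 3, 2, 1, 0, 3, 1, 3, 0, 2, 1, 3, 0, 1, 2, 3, 1, 0, 3, 1, 2, 1, 3, 1, 0, 1, 3, 1, 2, 1, 3, 1, 2, 0, 2, 1, 0, 1, 3, 2, 1, 0, 1, 0, 1, 3, 1, 0, 3, 1, 3, 1, 0, 1, 0, 1, 3, 2, 1, 0, 3, 1, 2, 0, 3, 1, 3, 0, 1, 2, 3, 1, 0, 1]], 1, [0, 1], 4)]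
def witL : List (List (List (Fin 4))) := [[[1, 3, 1, 0, 1]],
  [[0, 2, 1, 0, 1, 2]],
  [[0, 1, 3, 1, 0, 1]],
  [[0, 1, 3]]]
def wit (x : Fin 4) : List (List (Fin 4)) := witL.getD x.val []

end Cfsg.Agent.Lib.Helper13.HeNS
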