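import Cfsg.Agent.Lib.Helper13.He2058Data
import Cfsg.Agent.Lib.Helper13.HeNData
set_option autoImplicit false
set_option maxRecDepth 100000

/-!
Four involutions of the presented Held group, as words in its generators, which satisfy the
relators of the presented group of order 979200 and fix the first of the 2058 points.
-/

open Cfsg.Agent.Lib.Helper13.CE

namespace Cfsg.Agent.Lib.Helper13.HeSp

/-- the words. -/
def iwL : List (List Cfsg.Spor.He.Gen) := [[.d],
  [.c, .d, .f, .b, .c, .d, .e, .b, .c, .d, .e, .b, .c, .d, .e, .b, .c, .d, .e, .b, .c, .d, .e, .b, .c, .d, .e, .b, .c, .d, .e, .d, .f, .d, .c],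
  [.c, .e, .d, .c, .f, .d, .c, .d, .c, .f, .d, .c, .e],
  [.d, .e, .d, .c, .f, .d, .e]]

/-- the word of a generator. -/
def iw (x : Fin 4) : List Cfsg.Spor.He.Gen := iwL.getD x.val []

theorem hR : HeN.relsW.all (fun W => relOK He2058.nets 12 (W.flatMap iw)) = true := by
  decide +kernel

theorem hfix : ∀ l : Fin 4, wpos He2058.nets (iw l) 0 = 0 := by decide +kernel

theorem hne : wpos He2058.nets (iw 0) 2 ≠ 2 := by decide +kernel

end Cfsg.Agent.Lib.Helper13.HeSp
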