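import Cfsg.Agent.Lib.Helper13.HeO
import Cfsg.Agent.Lib.Helper13.HeNO
import Cfsg.Agent.Lib.Helper13.HeSpChk
import Cfsg.Agent.Lib.Helper13.CosetWords
set_option autoImplicit false
set_option maxRecDepth 100000

/-!
In the presented Held group, the subgroup `HB` of index 2058 has a subgroup of index two which is
isomorphic to the presented group of order 979200.
-/

open Cfsg.Agent.Lib.Helper13.CE Cfsg.Spor

namespace Cfsg.Agent.Lib.Helper13.HeSp

/-- the value of a word in the presented group. -/
def val (W : List He.Gen) : He := PresentedGroup.mk HeO.Rel ((W.map FreeGroup.of).prod)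

theorem val_append (V W : List He.Gen) : val (V ++ W) = val V * val W := by
  unfold val
  rw [List.map_append, List.prod_append, map_mul]

theorem val_nil : val [] = 1 := by
  unfold val
  simp

theorem val_eq_one (W : List He.Gen) (h : relOK He2058.nets 12 W = true) : val W = 1 := by
  obtain ⟨X, f, hnets, hev, hf, hinj, hcard⟩ := HeO.faithful
  have h1 := X.ev_eq_one_of_inj hinj W (by rw [hnets]; exact h)
  rw [hev] at h1
  exact h1

theorem val_mem (W : List He.Gen) (h : wpos He2058.nets W 0 = 0) : val W ∈ HeO.HB := by
  obtain ⟨X, f, hnets, hev, hf, hinj, hcard⟩ := HeO.faithful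
  rw [X.mem_iff_φ_zero HeO.HB f hf]
  apply Fin.ext
  have h1 := X.φ_ev_val W 0
  rw [hev, hnets] at h1
  exact h1.trans h

/-- the generators of the subgroup. -/
def gH (l : Fin 4) : HeO.HB := ⟨val (iw l), val_mem _ (hfix l)⟩

theorem coe_prod (W : List (Fin 4)) :
    (((W.map gH).prod : HeO.HB) : He) = val (W.flatMap iw) := by
  induction W with
  | nil => simp [val_nil]
  | cons x W ih =>
    rw [List.map_cons, List.prod_cons, Subgroup.coe_mul, ih, List.flatMap_cons, val_append]
    rfl

theorem prod_rel : ∀ W ∈ relsGen HeN.edges HeN.par.letters HeN.extraW, (W.map gH).prod = 1 := by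
  intro W hW
  have hW' : W ∈ HeN.relsW := by
    have h : W ∈ HeN.par.rels := by rw [HeN.hrels]; exact hW
    exact h
  exact Subtype.ext (by rw [coe_prod]; exact val_eq_one _ (List.all_eq_true.mp hR W hW'))

/-- the homomorphism from the presented group of order 979200. -/
def psi : HeNO.P →* HeO.HB :=
  PresentedGroup.toGroup (lift_eq_one_of_relsGen HeN.edges HeN.extra HeN.par.letters HeN.extraW
    HeN.hletters HeN.hextra gH prod_rel)

theorem psi_of (l : Fin 4) : psi (PresentedGroup.of l) = gH l := PresentedGroup.toGroup.of _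

theorem gH_ne_one : gH 0 ≠ 1 := by
  obtain ⟨X, f, hnets, hev, hf, hinj, hcard⟩ := HeO.faithful
  intro h
  have h1 := X.φ_ev_ne_one (iw 0) ⟨2, by norm_num⟩ (by rw [hnets]; exact hne)
  apply h1
  rw [hev]
  have h2 : val (iw 0) = 1 := congrArg Subtype.val h
  have h3 : PresentedGroup.mk HeO.Rel (((iw 0).map FreeGroup.of).prod) = 1 := h2
  rw [h3, map_one]

theorem psi_injective : Function.Injective psi := by
  rw [← MonoidHom.ker_eq_bot_iff]
  rcases HeNO.simple.eq_bot_or_eq_top_of_normal psi.ker inferInstance with h | h
  · exact h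
  · exfalso
    have h0 : (PresentedGroup.of 0 : HeNO.P) ∈ psi.ker := by rw [h]; trivial
    rw [MonoidHom.mem_ker, psi_of] at h0
    exact gH_ne_one h0

theorem card_HB : Nat.card HeO.HB = 1958400 := by
  obtain ⟨X, f, -, -, -⟩ := HeO.mainB
  have h1 := card_eq_of_index HeO.HB 2058 f
  rw [HeO.card] at h1
  omega

/-- the subgroup of index two. -/
def N : Subgroup HeO.HB := psi.range

/-- the subgroup is isomorphic to the presented group. -/
noncomputable def equivN : HeNO.P ≃* N := MonoidHom.ofInjective psi_injective

theorem card_N : Nat.card N = 979200 := by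
  rw [← Nat.card_congr equivN.toEquiv, HeNO.card]

theorem index_N : N.index = 2 := by
  have h := Subgroup.card_mul_index N
  rw [card_N, card_HB] at h
  omega

instance N_normal : N.Normal := Subgroup.normal_of_index_eq_two index_N

end Cfsg.Agent.Lib.Helper13.HeSp
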