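import Mathlib
import Cfsg.Prelude.Def_SporadicCombinatorics

set_option autoImplicit false

namespace Cfsg.Agent.Lib.Helper13

open Cfsg

/-- A concrete model of the field with four elements: pairs `(a, b)` standing for `a + b ω`. -/
abbrev H4 : Type := ZMod 2 × ZMod 2

def h4mul (p q : H4) : H4 := (p.1 * q.1 + p.2 * q.2, p.1 * q.2 + p.2 * q.1 + p.2 * q.2)

def h4w : H4 := (0, 1)

def h4w2 : H4 := (1, 1)

def h4G1 : Fin 6 → H4 := ![h4w, h4w2, h4w2, h4w, h4w2, h4w]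

def h4G2 : Fin 6 → H4 := ![h4w2, h4w, h4w, h4w2, h4w2, h4w]

def h4G3 : Fin 6 → H4 := ![h4w2, h4w, h4w2, h4w, h4w, h4w2]

/-- The parameter space of the hexacode. -/
abbrev H4Par : Type := H4 × H4 × H4

/-- The concrete hexacode word with given coefficients. -/
def h4Word (t : H4Par) : Fin 6 → H4 :=
  fun i => h4mul t.1 (h4G1 i) + h4mul t.2.1 (h4G2 i) + h4mul t.2.2 (h4G3 i)

/-- Its weight. -/
def h4Wt (t : H4Par) : ℕ := (Finset.univ.filter (fun i => h4Word t i ≠ 0)).card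

set_option maxRecDepth 100000 in
theorem h4Word_inj : ∀ t t' : H4Par, h4Word t = h4Word t' → t = t' := by
  decide +kernel

set_option maxRecDepth 100000 in
theorem h4_wt_cases : ∀ t : H4Par, h4Wt t = 0 ∨ h4Wt t = 4 ∨ h4Wt t = 6 := by
  decide +kernel

set_option maxRecDepth 100000 in
theorem h4_count4 : (Finset.univ.filter (fun t : H4Par => h4Wt t = 4)).card = 45 := by
  decide +kernel

set_option maxRecDepth 100000 in
theorem h4_count6 : (Finset.univ.filter (fun t : H4Par => h4Wt t = 6)).card = 18 := by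
  decide +kernel

section field

variable {F : Type*} [Field F]

theorem h4_two [Fintype F] (hF : Fintype.card F = 4) : (2 : F) = 0 := by
  have h := card_nsmul_eq_zero (G := F) (x := 1)
  rw [hF, nsmul_one] at h
  have h' : (2 : F) * 2 = 0 := by
    rw [← h]; norm_num
  exact mul_self_eq_zero.1 h'

theorem h4_charP [Fintype F] (hF : Fintype.card F = 4) : CharP F 2 :=
  CharTwo.of_one_ne_zero_of_two_eq_zero one_ne_zero (h4_two hF)

variable [CharP F 2]

/-- The identification of the concrete model with `F`. -/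
noncomputable def h4φ (ω : F) (p : H4) : F :=
  ZMod.castHom (dvd_refl 2) F p.1 + ZMod.castHom (dvd_refl 2) F p.2 * ω

theorem h4φ_add (ω : F) (p q : H4) : h4φ ω (p + q) = h4φ ω p + h4φ ω q := by
  simp only [h4φ, Prod.fst_add, Prod.snd_add, map_add]; ring

theorem h4φ_zero (ω : F) : h4φ ω 0 = 0 := by
  simp [h4φ]

theorem h4φ_mul {ω : F} (hω : ω ^ 2 + ω + 1 = 0) (p q : H4) :
    h4φ ω (h4mul p q) = h4φ ω p * h4φ ω q := by
  have h2 : (2 : F) = 0 := CharTwo.two_eq_zero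
  simp only [h4φ, h4mul, map_add, map_mul]
  linear_combination (-(ZMod.castHom (dvd_refl 2) F p.2 * ZMod.castHom (dvd_refl 2) F q.2)) * hω +
    (ZMod.castHom (dvd_refl 2) F p.2 * ZMod.castHom (dvd_refl 2) F q.2 * (ω + 1)) * h2

theorem h4φ_w (ω : F) : h4φ ω h4w = ω := by
  simp [h4φ, h4w]

theorem h4φ_w2 {ω : F} (hω : ω ^ 2 + ω + 1 = 0) : h4φ ω h4w2 = ω ^ 2 := by
  have h2 : (2 : F) = 0 := CharTwo.two_eq_zero
  simp only [h4φ, h4w2, map_one]
  linear_combination (-1 : F) * hω + (ω + 1) * h2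

theorem h4_cases : ∀ p : H4, p = (0, 0) ∨ p = (1, 0) ∨ p = (0, 1) ∨ p = (1, 1) := by decide

theorem h4φ_eq_zero {ω : F} (hω : ω ^ 2 + ω + 1 = 0) {p : H4} (h : h4φ ω p = 0) : p = 0 := by
  have h2 : (2 : F) = 0 := CharTwo.two_eq_zero
  rcases h4_cases p with rfl | rfl | rfl | rfl
  · rfl
  · exfalso
    simp [h4φ] at h
  · exfalso
    have h' : ω = 0 := by simpa [h4φ] using h
    rw [h'] at hω
    simp at hω
  · exfalso
    have h' : 1 + ω = 0 := by simpa [h4φ] using h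
    have h1 : (1 : F) = 0 := by
      linear_combination hω - ω * h'
    exact one_ne_zero h1

theorem h4φ_injective {ω : F} (hω : ω ^ 2 + ω + 1 = 0) : Function.Injective (h4φ ω) := by
  intro p q h
  have h2 : h4φ ω (p + q) = 0 := by
    rw [h4φ_add, h, CharTwo.add_self_eq_zero]
  have h3 := h4φ_eq_zero hω h2
  have h4 : ∀ p q : H4, p + q = 0 → p = q := by decide
  exact h4 p q h3

theorem h4φ_bijective [Fintype F] (hF : Fintype.card F = 4) {ω : F} (hω : ω ^ 2 + ω + 1 = 0) :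
    Function.Bijective (h4φ ω) := by
  rw [Fintype.bijective_iff_injective_and_card]
  refine ⟨h4φ_injective hω, ?_⟩
  rw [hF]
  simp

/-- The transported word. -/
noncomputable def h4Φ (ω : F) (t : H4Par) : Fin 6 → F := fun i => h4φ ω (h4Word t i)

theorem h4Φ_eq {ω : F} (hω : ω ^ 2 + ω + 1 = 0) (t : H4Par) :
    h4Φ ω t = h4φ ω t.1 • ![ω, ω ^ 2, ω ^ 2, ω, ω ^ 2, ω] +
      h4φ ω t.2.1 • ![ω ^ 2, ω, ω, ω ^ 2, ω ^ 2, ω] +
      h4φ ω t.2.2 • ![ω ^ 2, ω, ω ^ 2, ω, ω, ω ^ 2] := by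
  funext i
  fin_cases i <;>
    simp [h4Φ, h4Word, h4G1, h4G2, h4G3, h4φ_add, h4φ_mul hω, h4φ_w, h4φ_w2 hω]

theorem h4_mem_iff [Fintype F] (hF : Fintype.card F = 4) {ω : F} (hω : ω ^ 2 + ω + 1 = 0)
    (x : Fin 6 → F) : x ∈ Cfsg.hexacode F ω ↔ ∃ t : H4Par, x = h4Φ ω t := by
  unfold Cfsg.hexacode
  rw [Submodule.mem_span_triple]
  constructor
  · rintro ⟨a, b, c, rfl⟩
    obtain ⟨a', rfl⟩ := (h4φ_bijective hF hω).2 a
    obtain ⟨b', rfl⟩ := (h4φ_bijective hF hω).2 b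
    obtain ⟨c', rfl⟩ := (h4φ_bijective hF hω).2 c
    exact ⟨(a', b', c'), (h4Φ_eq hω (a', b', c')).symm⟩
  · rintro ⟨t, rfl⟩
    exact ⟨_, _, _, (h4Φ_eq hω t).symm⟩

theorem h4Φ_injective {ω : F} (hω : ω ^ 2 + ω + 1 = 0) : Function.Injective (h4Φ ω) := by
  intro t t' h
  apply h4Word_inj
  funext i
  exact h4φ_injective hω (congrFun h i)

theorem h4Φ_wt [DecidableEq F] {ω : F} (hω : ω ^ 2 + ω + 1 = 0) (t : H4Par) :
    (Finset.univ.filter fun i => h4Φ ω t i ≠ 0).card = h4Wt t := by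
  unfold h4Wt
  congr 1
  apply Finset.filter_congr
  intro i _
  constructor
  · intro h h0
    apply h
    show h4φ ω (h4Word t i) = 0
    rw [h0, h4φ_zero]
  · intro h h0
    exact h (h4φ_eq_zero hω h0)

theorem h4_ncard_wt [Fintype F] [DecidableEq F] (hF : Fintype.card F = 4) {ω : F}
    (hω : ω ^ 2 + ω + 1 = 0) (w : ℕ) :
    {x : Fin 6 → F | x ∈ Cfsg.hexacode F ω ∧
        (Finset.univ.filter fun i => x i ≠ 0).card = w}.ncard =
      (Finset.univ.filter (fun t : H4Par => h4Wt t = w)).card := by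
  have : {x : Fin 6 → F | x ∈ Cfsg.hexacode F ω ∧
        (Finset.univ.filter fun i => x i ≠ 0).card = w} =
      h4Φ ω '' ↑(Finset.univ.filter (fun t : H4Par => h4Wt t = w)) := by
    ext x
    simp only [Set.mem_ofPred_eq, Set.mem_image, Finset.coe_filter, Finset.mem_univ, true_and]
    constructor
    · rintro ⟨hx, hw⟩
      obtain ⟨t, rfl⟩ := (h4_mem_iff hF hω x).1 hx
      rw [h4Φ_wt hω] at hw
      exact ⟨t, hw, rfl⟩
    · rintro ⟨t, hw, rfl⟩
      exact ⟨(h4_mem_iff hF hω _).2 ⟨t, rfl⟩, by rw [h4Φ_wt hω]; exact hw⟩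
  rw [this, Set.ncard_image_of_injective _ (h4Φ_injective hω), Set.ncard_coe_finset]

theorem h4_card [Fintype F] (hF : Fintype.card F = 4) {ω : F} (hω : ω ^ 2 + ω + 1 = 0) :
    Nat.card ↥(Cfsg.hexacode F ω) = 64 := by
  have e : H4Par ≃ ↥(Cfsg.hexacode F ω) :=
    Equiv.ofBijective (fun t => ⟨h4Φ ω t, (h4_mem_iff hF hω _).2 ⟨t, rfl⟩⟩)
      ⟨fun a b h => h4Φ_injective hω (congrArg Subtype.val h), fun ⟨x, hx⟩ => by
        obtain ⟨t, rfl⟩ := (h4_mem_iff hF hω x).1 hx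
        exact ⟨t, rfl⟩⟩
  rw [← Nat.card_congr e, Nat.card_eq_fintype_card]
  simp

theorem h4_wt_of_mem [Fintype F] [DecidableEq F] (hF : Fintype.card F = 4) {ω : F}
    (hω : ω ^ 2 + ω + 1 = 0) {x : Fin 6 → F} (hx : x ∈ Cfsg.hexacode F ω) (hx0 : x ≠ 0) :
    (Finset.univ.filter fun i => x i ≠ 0).card = 4 ∨
      (Finset.univ.filter fun i => x i ≠ 0).card = 6 := by
  obtain ⟨t, rfl⟩ := (h4_mem_iff hF hω x).1 hx
  rcases h4_wt_cases t with h | h | h
  · exfalso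
    apply hx0
    rw [← h4Φ_wt hω, Finset.card_eq_zero, Finset.filter_eq_empty_iff] at h
    funext i
    have := h (Finset.mem_univ i)
    simpa using this
  · left; rw [h4Φ_wt hω]; exact h
  · right; rw [h4Φ_wt hω]; exact h

end field

end Cfsg.Agent.Lib.Helper13
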