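import Cfsg.Agent.Lib.Helper13.CosetY
set_option autoImplicit false
set_option maxRecDepth 100000

open Cfsg.Agent.Lib.Helper13.CE

namespace Cfsg.Agent.Lib.Helper13.J1C

def netL : List (List (ℕ × ℕ)) := [[(0x404041014154154154154140410101, 1), (0x322101022222222222222223030220, 2), (0xc060200070c0b00070c0b0001090c, 4), (0x300b800f3007000730070007f0030, 8), (0x34700004f080000cfcf00004700, 16), (0x4780c70000000080c70000, 32), (0x80c700000000, 64), (0x80c70000000000000000, 32), (0x4700000000000080c700000000, 16), (0x30000004300400043004000470000, 8), (0x20200070c0b00070c0b00010100, 4), (0x322101022222222222222223030220, 2), (0x4041014154154154154140410100, 1)],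
  [(0x510440500101145041151550544510, 1), (0x120031213020303000303021203313, 2), (0xa010e03070d070f070d07030e010a, 4), (0x84002b00ed0034000f00e900fb0078, 8), (0x95c70000ee3b000095f600008700, 16), (0x73cd02800000000000960000, 32), (0x6209008000000000, 64), (0x620900800000000000000000, 32), (0x11c4000062090000009600000000, 16), (0x8400530084006b00b1000200860000, 8), (0xe00020000080a08000002000e00, 4), (0x213302120303000303020312130020, 2), (0x510440500101145041151550544510, 1)],
  [(0x44001110140455540441511155445, 1), (0x301212033301013332212032212103, 2), (0xf050a070d0709060e030906010e06, 4), (0x2000d6003f00c8001f00f200ff0090, 8), (0x6069000039d200006dad00002d00, 16), (0x502b002d00000000002d0000, 32), (0x1002002d00000000, 64), (0x1002002d0000000000000000, 32), (0x4029000010020000002d00000000, 16), (0x20004000a9001600ec0004002d0000, 8), (0x60a050e01000a0a050005000e0100, 4), (0x31212203212200013130003212130, 2), (0x511554445411015551014044400110, 1)]]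
def nets (i : Fin 3) : List (ℕ × ℕ) := netL.getD i.val []
def idx (i : Fin 3) : ℕ := i.val
def lettersW : List (Fin 3) := [0, 1, 2]
def relsW : List (List (Fin 3)) := [[0, 0],
  [1, 1],
  [2, 2],
  [0, 1, 0, 1, 0, 1, 0, 1, 0, 1],
  [0, 2, 0, 2],
  [1, 2, 1, 2, 1, 2]]
def extraW : List (List (Fin 3)) := []
def subsW : List (List (Fin 3)) := []
def par : Par (Fin 3) := { nets := nets, idx := idx, letters := lettersW, rels := relsW, subs := subsW, n := 120, N := 128, P := 2, full := 2 ^ 120 - 1 }
def tree : List (Fin 3) := [0, 1, 2, 0, 1, 2, 0, 1, 2, 0, 1, 2, 0, 1, 2]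
def sA0_0 : List (StepA (Fin 3)) := [.z 4 0, .z 4 1, .z 5 0, .z 5 1, .z 3 0, .z 3 1, .z 4 0, .z 4 1, .z 5 0, .z 5 1, .z 3 1, .z 4 0, .z 4 1, .z 5 1, .z 3 1]
def sA0 : List (StepA (Fin 3)) := sA0_0
def sA1_0 : List (StepA (Fin 3)) := []
def sA1 : List (StepA (Fin 3)) := sA1_0
def stepsA : List (StepA (Fin 3)) := sA0 ++ (sA1)
def Zs0 : List ℕ := [0x933319c73efbffffffffffffffd7, 0x15b6673bdf7bef3ce79cd379cfffff, 0xff6dddee38c514a29452aaad6114bf]
def Zs1 : List ℕ := [0xffffffffffffffffffffffffffffff, 0xffffffffffffffffffffffffffffff, 0xffffffffffffffffffffffffffffff]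
def AR_0 : List (List ℕ) := []
def ARc : List (List (List ℕ)) := [AR_0]
def AR : List (List ℕ) := ARc.flatten
def AS_0 : List (List ℕ) := []
def AS : List (List ℕ) := AS_0
def defsB_0 : List (ℕ × ℕ) := []
def defsB : List (ℕ × ℕ) := defsB_0
def stepsB_0 : List (StepB) := []
def stepsB : List (StepB) := stepsB_0
def parB : ParB := { wd := 2, NL := 2, fuel := 64, AR := ARc, AS := AS, defs := defsB }

end Cfsg.Agent.Lib.Helper13.J1C
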