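import Cfsg.Agent.Lib.Helper13.J1O
import Cfsg.Agent.Lib.Helper13.J1CP
import Cfsg.Agent.Lib.Helper13.J1CChk
import Cfsg.Agent.Lib.Helper13.CosetWords
set_option autoImplicit false
set_option maxRecDepth 100000

/-!
In the presented group of order 175560, the centraliser of the first generator is isomorphic to
the direct product of a group of order two and the alternating group of degree five: it is the
image of the Coxeter group of type `H₃`, which has 120 elements with different actions, and the
generator has 1463 conjugates.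
-/

open Cfsg.Agent.Lib.Helper13.CE Cfsg.Spor

namespace Cfsg.Agent.Lib.Helper13.J1Cn

/-- the relators. -/
abbrev Rel : Set (FreeGroup (Fin 4)) := coxRelators J1x.edges ∪ {r | r ∈ J1x.extra}

/-- the value of a word in the presented group. -/
def val (W : List (Fin 4)) : J1O.P := PresentedGroup.mk Rel ((W.map FreeGroup.of).prod)

theorem val_append (V W : List (Fin 4)) : val (V ++ W) = val V * val W := by
  unfold val
  rw [List.map_append, List.prod_append, map_mul]

theorem val_nil : val [] = 1 := by
  unfold val
  simp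

theorem val_eq_one (W : List (Fin 4)) (h : relOK J1x.nets 9 W = true) : val W = 1 := by
  obtain ⟨X, f, hnets, hev, hf, hinj, hcard⟩ := J1O.faithful
  have h1 := X.ev_eq_one_of_inj hinj W (by rw [hnets]; exact h)
  rw [hev] at h1
  exact h1

theorem val_reverse (W : List (Fin 4)) : val W.reverse = (val W)⁻¹ := by
  obtain ⟨X, f, hnets, hev, hf, hinj, hcard⟩ := J1O.faithful
  have h := X.ev_reverse W
  rw [hev, hev] at h
  exact h

theorem wcode_congr (V W : List (Fin 4)) (h : val V = val W) : wcode V = wcode W := by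
  obtain ⟨X, f, hnets, hev, hf, hinj, hcard⟩ := J1O.faithful
  have hVW : X.ev V = X.ev W := by rw [hev, hev]; exact h
  unfold wcode
  apply Nat.eq_of_testBit_eq
  intro j
  rw [Nat.testBit_and, Nat.testBit_and]
  by_cases hj : j < 266
  · have h1 := X.testBit_wapply' V S0 ⟨j, hj⟩
    have h2 := X.testBit_wapply' W S0 ⟨j, hj⟩
    rw [hnets] at h1 h2
    rw [hVW] at h1
    have h3 : (wapply J1x.nets V S0).testBit j = (wapply J1x.nets W S0).testBit j :=
      h1.trans h2.symm
    rw [h3]
  · rw [Nat.testBit_two_pow_sub_one]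
    simp [hj]

theorem incr_sound : ∀ l : List ℕ, incr l = true → l.Pairwise (· < ·)
  | [], _ => List.Pairwise.nil
  | [_], _ => List.pairwise_singleton _ _
  | a :: b :: l, h => by
    simp only [incr, Bool.and_eq_true] at h
    have hab : a < b := Nat.le_of_ble_eq_true h.1
    have ih := incr_sound (b :: l) h.2
    refine List.Pairwise.cons ?_ ih
    intro x hx
    rcases List.mem_cons.mp hx with rfl | hx'
    · exact hab
    · exact lt_trans hab ((List.pairwise_cons.mp ih).1 x hx')

theorem nodup_of_incr (l : List ℕ) (h : incr l = true) : l.Nodup :=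
  (incr_sound l h).imp (fun h => ne_of_lt h)

/-- a list without repetition of elements of a finite subgroup is not longer than its order. -/
theorem length_le_card {G : Type*} [Group G] (H : Subgroup G) [Finite H] (l : List G)
    (hl : l.Nodup) (hm : ∀ x ∈ l, x ∈ H) : l.length ≤ Nat.card H := by
  classical
  haveI := Fintype.ofFinite H
  have h1 : (l.pmap (fun x hx => (⟨x, hx⟩ : H)) hm).Nodup :=
    hl.pmap (fun a _ b _ h => congrArg Subtype.val h)
  have h2 := h1.length_le_card
  rw [List.length_pmap] at h2
  rw [Nat.card_eq_fintype_card]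
  exact h2

/-- the images of the generators. -/
def gC (l : Fin 3) : J1O.P := val (iw l)

theorem prod_gC (W : List (Fin 3)) : (W.map gC).prod = val (W.flatMap iw) := by
  induction W with
  | nil => simp [val_nil]
  | cons x W ih =>
    rw [List.map_cons, List.prod_cons, ih, List.flatMap_cons, val_append]
    rfl

theorem prod_rel : ∀ W ∈ relsGen J1C.edges J1C.par.letters J1C.extraW, (W.map gC).prod = 1 := by
  intro W hW
  have hW' : W ∈ J1C.par.rels := by rw [J1C.hrels]; exact hW
  rw [prod_gC]
  exact val_eq_one _ (List.all_eq_true.mp hR W hW')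

/-- the homomorphism from the Coxeter group. -/
def psi : J1C.Grp →* J1O.P :=
  PresentedGroup.toGroup (lift_eq_one_of_relsGen J1C.edges J1C.extra J1C.par.letters J1C.extraW
    J1C.hletters J1C.hextra gC prod_rel)

theorem psi_of (l : Fin 3) : psi (PresentedGroup.of l) = gC l := PresentedGroup.toGroup.of _

theorem psi_prod (W : List (Fin 3)) :
    psi ((W.map PresentedGroup.of).prod) = val (W.flatMap iw) := by
  rw [map_list_prod, List.map_map, ← prod_gC]
  have h : (psi ∘ PresentedGroup.of) = gC := funext psi_of
  rw [h]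

/-- the involution. -/
def t : J1O.P := val [0]

theorem gC_comm (l : Fin 3) : t * gC l = gC l * t := by
  obtain ⟨X, f, hnets, hev, hf, hinj, hcard⟩ := J1O.faithful
  have h := X.comm_of_relOK hinj [0] (iw l) (by rw [hnets]; exact hcomm l)
  rw [hev, hev] at h
  exact h

theorem range_le : psi.range ≤ Subgroup.centralizer ({t} : Set J1O.P) := by
  rw [MonoidHom.range_eq_map, ← PresentedGroup.closure_range_of, MonoidHom.map_closure,
    Subgroup.closure_le]
  rintro _ ⟨_, ⟨l, rfl⟩, rfl⟩
  rw [psi_of, SetLike.mem_coe, Subgroup.mem_centralizer_iff]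
  intro h hh
  rw [Set.mem_singleton_iff] at hh
  rw [hh]
  exact gC_comm l

theorem card_range_ge : 120 ≤ Nat.card psi.range := by
  haveI : Finite J1O.P := J1O.finite
  have h0 := nodup_of_incr _ hcw
  have hnd : (cwL.map (fun W => val (W.flatMap iw))).Nodup := by
    refine List.Nodup.map_on ?_ (List.Nodup.of_map _ h0)
    intro x hx y hy hxy
    exact List.inj_on_of_nodup_map h0 hx hy (wcode_congr _ _ hxy)
  have h := length_le_card psi.range _ hnd (by
    intro x hx
    obtain ⟨W, -, rfl⟩ := List.mem_map.mp hx
    exact ⟨_, psi_prod W⟩)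
  rw [List.length_map, hcwlen] at h
  exact h

theorem card_centralizer_le : Nat.card (Subgroup.centralizer ({t} : Set J1O.P)) ≤ 120 := by
  classical
  haveI : Finite J1O.P := J1O.finite
  have hconj : ∀ W : List (Fin 4), val (W.reverse ++ [0] ++ W) = (val W)⁻¹ * t * val W := by
    intro W
    rw [val_append, val_append, val_reverse]
    rfl
  have h0 := nodup_of_incr _ hgw
  have hnd : (gwL.map (fun W => (QuotientGroup.mk (val W)⁻¹ :
      J1O.P ⧸ Subgroup.centralizer ({t} : Set J1O.P)))).Nodup := by
    refine List.Nodup.map_on ?_ (List.Nodup.of_map _ h0)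
    intro x hx y hy hxy
    apply List.inj_on_of_nodup_map h0 hx hy
    apply wcode_congr
    rw [hconj, hconj]
    have h1 : ((val x)⁻¹)⁻¹ * (val y)⁻¹ ∈ Subgroup.centralizer ({t} : Set J1O.P) :=
      QuotientGroup.eq.mp hxy
    rw [inv_inv, Subgroup.mem_centralizer_iff] at h1
    have h2 := h1 t (Set.mem_singleton t)
    calc (val x)⁻¹ * t * val x = (val x)⁻¹ * (t * (val x * (val y)⁻¹)) * val y := by group
      _ = (val x)⁻¹ * (val x * (val y)⁻¹ * t) * val y := by rw [h2]
      _ = (val y)⁻¹ * t * val y := by group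
  haveI := Fintype.ofFinite (J1O.P ⧸ Subgroup.centralizer ({t} : Set J1O.P))
  have h3 := hnd.length_le_card
  rw [List.length_map, hgwlen, ← Nat.card_eq_fintype_card, ← Subgroup.index_eq_card] at h3
  have h4 := Subgroup.card_mul_index (Subgroup.centralizer ({t} : Set J1O.P))
  rw [J1O.card] at h4
  by_contra hlt
  push_neg at hlt
  have h5 : 121 * 1463 ≤ Nat.card (Subgroup.centralizer ({t} : Set J1O.P)) *
      (Subgroup.centralizer ({t} : Set J1O.P)).index := Nat.mul_le_mul hlt h3
  omega

theorem psi_injective : Function.Injective psi := by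
  haveI : Finite J1C.Grp := J1C.card_le.1
  have h1 : Nat.card J1C.Grp ≤ Nat.card psi.range := le_trans J1C.card_le.2 card_range_ge
  have hb := Function.Surjective.bijective_of_nat_card_le psi.rangeRestrict_surjective h1
  intro a a' e
  apply hb.1
  exact Subtype.ext e

theorem range_eq : psi.range = Subgroup.centralizer ({t} : Set J1O.P) := by
  haveI : Finite J1O.P := J1O.finite
  exact Subgroup.eq_of_le_of_card_ge range_le (le_trans card_centralizer_le card_range_ge)

/-- the Coxeter group is isomorphic to the centraliser. -/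
noncomputable def equivCent : J1C.Grp ≃* Subgroup.centralizer ({t} : Set J1O.P) :=
  (MonoidHom.ofInjective psi_injective).trans (MulEquiv.subgroupCongr range_eq)

theorem t_sq : t * t = 1 := by
  have h := val_eq_one [0, 0] hsq
  rw [show ([0, 0] : List (Fin 4)) = [0] ++ [0] from rfl, val_append] at h
  exact h

theorem t_ne_one : t ≠ 1 := by
  obtain ⟨X, f, hnets, hev, hf, hinj, hcard⟩ := J1O.faithful
  intro h
  have h1 := X.φ_ev_ne_one [0] ⟨1, by norm_num⟩ (by rw [hnets]; exact hne)
  apply h1
  rw [hev]
  have h3 : PresentedGroup.mk Rel ((([0] : List (Fin 4)).map FreeGroup.of).prod) = 1 := h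
  rw [h3, map_one]

theorem orderOf_t : orderOf t = 2 :=
  orderOf_eq_prime (by rw [pow_two]; exact t_sq) t_ne_one

/-! ### the Coxeter group of type `H₃` -/

/-- the target group. -/
abbrev K : Type := Multiplicative (ZMod 2) × alternatingGroup (Fin 5)

/-- three involutions of the alternating group. -/
def r1 : alternatingGroup (Fin 5) :=
  ⟨Equiv.swap 0 1 * Equiv.swap 2 3, by
    rw [Equiv.Perm.mem_alternatingGroup, Equiv.Perm.sign_mul,
      Equiv.Perm.sign_swap (by decide), Equiv.Perm.sign_swap (by decide)]; rfl⟩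

def r2 : alternatingGroup (Fin 5) :=
  ⟨Equiv.swap 0 2 * Equiv.swap 1 4, by
    rw [Equiv.Perm.mem_alternatingGroup, Equiv.Perm.sign_mul,
      Equiv.Perm.sign_swap (by decide), Equiv.Perm.sign_swap (by decide)]; rfl⟩

def r3 : alternatingGroup (Fin 5) :=
  ⟨Equiv.swap 0 2 * Equiv.swap 1 3, by
    rw [Equiv.Perm.mem_alternatingGroup, Equiv.Perm.sign_mul,
      Equiv.Perm.sign_swap (by decide), Equiv.Perm.sign_swap (by decide)]; rfl⟩

/-- the images of the generators. -/
def sK (l : Fin 3) : K := (Multiplicative.ofAdd 1, ![r1, r2, r3] l)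

theorem sK_rel : ∀ W ∈ J1C.par.rels, (W.map sK).prod = 1 := by decide

/-- the homomorphism to the target group. -/
def fK : J1C.Grp →* K :=
  PresentedGroup.toGroup (lift_eq_one_of_relsGen J1C.edges J1C.extra J1C.par.letters J1C.extraW
    J1C.hletters J1C.hextra sK (by
      intro W hW
      exact sK_rel W (by rw [J1C.hrels]; exact hW)))

theorem fK_of (l : Fin 3) : fK (PresentedGroup.of l) = sK l := PresentedGroup.toGroup.of _

theorem card_A5 : Nat.card (alternatingGroup (Fin 5)) = 60 := by
  have h := two_mul_nat_card_alternatingGroup (α := Fin 5)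
  rw [Nat.card_perm, Nat.card_eq_fintype_card (α := Fin 5), Fintype.card_fin] at h
  have h5 : Nat.factorial 5 = 120 := by decide
  omega

theorem snd_range_top :
    ((MonoidHom.snd (Multiplicative (ZMod 2)) (alternatingGroup (Fin 5))).comp fK).range = ⊤ := by
  have hm : ∀ l : Fin 3, ![r1, r2, r3] l ∈
      ((MonoidHom.snd (Multiplicative (ZMod 2)) (alternatingGroup (Fin 5))).comp fK).range :=
    fun l => ⟨PresentedGroup.of l, by rw [MonoidHom.comp_apply, fK_of]; rfl⟩
  generalize ((MonoidHom.snd (Multiplicative (ZMod 2)) (alternatingGroup (Fin 5))).comp fK).range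
    = R at hm
  have h1 : r1 ∈ R := hm 0
  have h2 : r2 ∈ R := hm 1
  have h3 : r3 ∈ R := hm 2
  have o5 : orderOf (r1 * r2) = 5 :=
    haveI : Fact (Nat.Prime 5) := ⟨by norm_num⟩
    orderOf_eq_prime (by decide) (by decide)
  have o3 : orderOf (r2 * r3) = 3 :=
    haveI : Fact (Nat.Prime 3) := ⟨by norm_num⟩
    orderOf_eq_prime (by decide) (by decide)
  have o2 : orderOf r1 = 2 := orderOf_eq_prime (by decide) (by decide)
  have d5 : 5 ∣ Nat.card R := by
    have := Subgroup.orderOf_dvd_natCard R (R.mul_mem h1 h2)
    rwa [o5] at this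
  have d3 : 3 ∣ Nat.card R := by
    have := Subgroup.orderOf_dvd_natCard R (R.mul_mem h2 h3)
    rwa [o3] at this
  have d2 : 2 ∣ Nat.card R := by
    have := Subgroup.orderOf_dvd_natCard R h1
    rwa [o2] at this
  have dR : Nat.card R ∣ 60 := by
    rw [← card_A5]
    exact Subgroup.card_subgroup_dvd_card R
  have h15 : 15 ∣ Nat.card R :=
    Nat.Coprime.mul_dvd_of_dvd_of_dvd (by decide : Nat.Coprime 5 3) d5 d3
  have h30 : 30 ∣ Nat.card R :=
    Nat.Coprime.mul_dvd_of_dvd_of_dvd (by decide : Nat.Coprime 15 2) h15 d2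
  have hle : Nat.card R ≤ 60 := Nat.le_of_dvd (by norm_num) dR
  have hc : Nat.card R = 30 ∨ Nat.card R = 60 := by
    obtain ⟨c, hc⟩ := h30
    have hpos : 0 < Nat.card R := Nat.card_pos
    omega
  rcases hc with hc | hc
  · exfalso
    have hidx : R.index = 2 := by
      have := Subgroup.card_mul_index R
      rw [hc, card_A5] at this
      omega
    haveI : R.Normal := Subgroup.normal_of_index_eq_two hidx
    rcases IsSimpleGroup.eq_bot_or_eq_top_of_normal R inferInstance with h | h
    · rw [h, Subgroup.card_bot] at hc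
      omega
    · rw [h, Subgroup.card_top, card_A5] at hc
      omega
  · exact Subgroup.eq_top_of_card_eq R (by rw [hc, card_A5])

theorem fK_surjective : Function.Surjective fK := by
  rintro ⟨z, y⟩
  have hy : y ∈ ((MonoidHom.snd (Multiplicative (ZMod 2)) (alternatingGroup (Fin 5))).comp
      fK).range := by
    rw [snd_range_top]; trivial
  obtain ⟨p, hp⟩ := hy
  have hp' : (fK p).2 = y := hp
  have hc : fK ((PresentedGroup.of 0 * PresentedGroup.of 1 * PresentedGroup.of 2) ^ 5) =
      (Multiplicative.ofAdd 1, 1) := by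
    rw [map_pow, map_mul, map_mul, fK_of, fK_of, fK_of]
    decide
  by_cases hz : (fK p).1 = z
  · exact ⟨p, Prod.ext hz hp'⟩
  · refine ⟨(PresentedGroup.of 0 * PresentedGroup.of 1 * PresentedGroup.of 2) ^ 5 * p, ?_⟩
    rw [map_mul, hc]
    refine Prod.ext ?_ ?_
    · show Multiplicative.ofAdd 1 * (fK p).1 = z
      revert hz
      generalize (fK p).1 = w
      revert w z
      decide
    · show 1 * (fK p).2 = y
      rw [one_mul]
      exact hp'

theorem card_K : Nat.card K = 120 := by
  rw [Nat.card_prod, card_A5]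
  have h : Nat.card (Multiplicative (ZMod 2)) = 2 := by
    rw [Nat.card_eq_fintype_card]
    rfl
  rw [h]

/-- the Coxeter group is isomorphic to the target group. -/
noncomputable def equivK : J1C.Grp ≃* K :=
  haveI : Finite J1C.Grp := J1C.card_le.1
  MulEquiv.ofBijective fK
    (Function.Surjective.bijective_of_nat_card_le fK_surjective
      (by rw [card_K]; exact J1C.card_le.2))

theorem main : ∃ t : J1O.P, orderOf t = 2 ∧
    Nonempty (Subgroup.centralizer ({t} : Set J1O.P) ≃*
      Multiplicative (ZMod 2) × alternatingGroup (Fin 5)) :=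
  ⟨t, orderOf_t, ⟨equivCent.symm.trans equivK⟩⟩

end Cfsg.Agent.Lib.Helper13.J1Cn
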