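import Cfsg.Agent.Lib.Helper13.J2SData
set_option autoImplicit false
set_option maxRecDepth 100000

open Cfsg.Agent.Lib.Helper13.CE

namespace Cfsg.Agent.Lib.Helper13.J2S

theorem hchainW : chainW J2x100.nets 100 [] levelsW = true := by decide +kernel
theorem hprodW : (levelsW.map (fun l => l.2.2.2)).prod = 604800 := by decide +kernel
theorem hwit : J2x100.lettersW.all (fun x => witOK J2x100.nets 7 5 x (wit x)) = true := by decide +kernel

end Cfsg.Agent.Lib.Helper13.J2S
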