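import Cfsg.Agent.Lib.Helper13.J2x100A
import Cfsg.Agent.Lib.Helper13.J2x100B
import Cfsg.Agent.Lib.Helper13.SuzK5P
import Cfsg.Agent.Lib.Helper13.J2SChk
set_option autoImplicit false
set_option maxRecDepth 100000

/-!
A presented group of order 604800 (the sub-presentation on `a, …, e` of the presentation of the
sporadic Suzuki group): its order, a faithful rank three action on 100 points, and simplicity.
-/

open Cfsg.Agent.Lib.Helper13.CE Cfsg.Spor Cfsg.Agent.Lib.Helper13.J2x100

namespace Cfsg.Agent.Lib.Helper13.J2O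

/-- the presented group. -/
abbrev P : Type := SuzK5.Grp

theorem hletters : ∀ x : Fin 5, x ∈ par.letters := by decide

theorem hidx : Function.Injective par.idx := fun _ _ h => Fin.ext h

theorem hextra : List.Forall₂ (fun r W => ∀ (K : Type) [Group K] (s : Fin 5 → K),
    (∀ x, s x * s x = 1) → FreeGroup.lift s r = (W.map s).prod) SuzK5.extra extraW := by
  have hinv : ∀ (K : Type) [Group K] (s : Fin 5 → K), (∀ x, s x * s x = 1) → ∀ x, (s x)⁻¹ = s x :=
    fun K _ s hs x => inv_eq_of_mul_eq_one_right (hs x)
  refine List.Forall₂.cons ?_ (List.Forall₂.cons ?_ (List.Forall₂.nil))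
  all_goals
    intro K _ s hs
    have hi := hinv K s hs
    simp only [map_mul, map_inv, FreeGroup.lift_apply_of, List.map_cons, List.map_nil,
      List.prod_cons, List.prod_nil, pow_succ, pow_zero, one_mul, mul_one, mul_inv_rev, hi, mul_assoc]

theorem hrels : par.rels = relsGen SuzK5.edges par.letters extraW := by decide +kernel

/-- the subgroup of index 100. -/
def Hs : Subgroup P :=
  Subgroup.closure {g | ∃ W ∈ par.subs, g = PresentedGroup.mk
    (coxRelators SuzK5.edges ∪ {r | r ∈ SuzK5.extra}) ((W.map FreeGroup.of).prod)}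

theorem main : ∃ (X : Act (Fin 5) P 100 7) (f : P ⧸ Hs ≃ Fin 100),
    X.nets = par.nets ∧
    (∀ W : List (Fin 5), X.ev W = PresentedGroup.mk
      (coxRelators SuzK5.edges ∪ {r | r ∈ SuzK5.extra}) ((W.map FreeGroup.of).prod)) ∧
    (∀ g, f (QuotientGroup.mk g) = X.φ g 0) :=
  cox_main2 SuzK5.edges SuzK5.extra 100 7 par extraW SuzK5.hnodes hletters hidx hextra hrels
    hstat 5 tree stepsA parB stepsB 16 hA rfl hB

instance finite : Finite P := SuzK5.card_le.1

/-- the action on the 100 cosets is faithful, and the order of the group. -/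
theorem faithful : ∃ (X : Act (Fin 5) P 100 7) (f : P ⧸ Hs ≃ Fin 100),
    X.nets = par.nets ∧
    (∀ W : List (Fin 5), X.ev W = PresentedGroup.mk
      (coxRelators SuzK5.edges ∪ {r | r ∈ SuzK5.extra}) ((W.map FreeGroup.of).prod)) ∧
    (∀ g, f (QuotientGroup.mk g) = X.φ g 0) ∧ Function.Injective X.φ ∧
    Nat.card P = 604800 := by
  obtain ⟨X, f, hnets, hev, hf⟩ := main
  have h := X.injective_of_chainW J2S.levelsW (by rw [hnets]; exact J2S.hchainW)
    604800 (le_trans SuzK5.card_le.2 (by norm_num)) (by rw [J2S.hprodW])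
  exact ⟨X, f, hnets, hev, hf, h.1, h.2⟩

theorem card : Nat.card P = 604800 := by
  obtain ⟨X, f, -, -, -, -, h⟩ := faithful
  exact h

theorem simple : IsSimpleGroup P := by
  obtain ⟨X, f, hnets, hev, hf, hinj, hcard⟩ := faithful
  have hH : Hs = Subgroup.closure {g | ∃ W ∈ par.subs, g = X.ev W} := by
    unfold Hs
    congr 1
    ext g
    constructor
    · rintro ⟨W, hW, rfl⟩; exact ⟨W, hW, (hev W).symm⟩
    · rintro ⟨W, hW, rfl⟩; exact ⟨W, hW, hev W⟩
  have hs : ∀ x, X.s x = PresentedGroup.of x := by
    intro x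
    have := hev [x]
    simp only [Act.ev, List.map_cons, List.map_nil, List.prod_cons, List.prod_nil,
      mul_one] at this
    exact this
  have hgen : Subgroup.closure (Set.range X.s) = ⊤ := by
    have h1 : X.s = PresentedGroup.of
        (rels := coxRelators SuzK5.edges ∪ {r | r ∈ SuzK5.extra}) := funext hs
    rw [h1]
    exact PresentedGroup.closure_range_of _
  have hprim := X.isPreprimitive_of_rank3 Hs f hf par.subs hH orb1 orb37 36 63
    (by norm_num) (by rw [hnets]; exact horb1) (by rw [hnets]; exact horb37)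
    (by norm_num) (by norm_num)
  refine X.isSimpleGroup_of_prime hinj hprim hgen 5 (by norm_num) ?_ (by rw [hcard]; norm_num)
    J2S.wit ?_
  · intro j hj
    rw [hcard] at hj
    have : j = 6048 := by omega
    rw [this]; norm_num
  · intro x
    have h := List.all_eq_true.mp J2S.hwit x (hletters x)
    rw [hnets]; exact h

end Cfsg.Agent.Lib.Helper13.J2O
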