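import Cfsg.Agent.Lib.Helper13.J2x100Data
import Cfsg.Agent.Lib.Helper13.CosetBase
set_option autoImplicit false
set_option maxRecDepth 100000

open Cfsg.Agent.Lib.Helper13.CE

namespace Cfsg.Agent.Lib.Helper13.J2S

def levelsW : List (List (List (Fin 5)) × ℕ × List ℕ × ℕ) := [([[0], [1], [2], [3], [4]], 0, [0, 1, 2, 3, 4, 0, 1, 3, 2, 3, 4, 1, 2, 3, 4, 0, 1], 100),
  ([[1], [2], [3, 2, 1, 0], [4, 3, 2, 1, 0, 1, 2, 3, 4], [0, 1, 2, 3], [0, 1, 3, 2, 3, 0, 1, 0]], 37, [0, 1, 2, 3, 4, 5, 0, 1, 2, 3, 4, 5], 63),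
  ([[2], [1, 2, 3, 2, 1, 0], [1, 0, 1, 2, 3, 0, 1, 2, 3], [0, 1, 2, 3, 4, 3, 2, 1, 0, 1, 2, 3, 4, 3, 2, 1, 0], [0, 1, 2, 3, 2, 1], [3, 2, 1, 0, 3, 2, 1, 0, 1]], 38, [0, 1, 2, 3, 5, 1], 32),
  ([[2, 1, 0, 1, 2, 3, 0, 1, 2, 3, 1, 0, 1, 2, 3, 0, 1, 2, 3], [2, 3, 2, 1, 0, 3, 2, 1, 0, 1, 3, 2, 1, 0, 3, 2, 1, 0, 1]], 1, [0, 1], 3)]
def witL : List (List (List (Fin 5))) := [[[1, 0, 1, 2, 1]],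
  [[0, 1, 2]],
  [[1, 2, 0]],
  [[2, 0, 1], [2, 3, 2, 0, 3, 1, 2], [4, 3, 1, 2, 1, 3, 4, 0]],
  [[1, 2, 0], [4, 3, 1, 2, 1, 3, 4, 0], [2, 1, 3, 4, 2, 3, 1, 4]]]
def wit (x : Fin 5) : List (List (Fin 5)) := witL.getD x.val []

end Cfsg.Agent.Lib.Helper13.J2S
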