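import Cfsg.Agent.Lib.Helper13.J3K3Data
set_option autoImplicit false
set_option maxRecDepth 100000

open Cfsg.Agent.Lib.Helper13.CE

namespace Cfsg.Agent.Lib.Helper13.J3K3

theorem hC0 : chunkOK par Zs0 (List.replicate 3 0) 1 sA0 Zs1 Ls1 26 [] [] = true := by decide +kernel

end Cfsg.Agent.Lib.Helper13.J3K3
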