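import Cfsg.Agent.Lib.Helper13.J3xData
import Cfsg.Agent.Lib.Helper13.CosetPrim
set_option autoImplicit false
set_option maxRecDepth 100000

open Cfsg.Agent.Lib.Helper13.CE

namespace Cfsg.Agent.Lib.Helper13.J3Prim

def orbs : List (ℕ × ℕ × List ℕ × List (Fin 4) × List ℕ) := [(1, 85, [0, 1, 2, 0, 1, 2, 0, 1, 2, 0, 1, 2, 0, 1], [3, 0, 1, 0, 1, 3, 0, 1, 0, 3, 1, 0, 3], [0, 1, 2, 3, 0, 1, 2, 3, 0, 1, 2, 3, 0, 1, 2, 3, 0, 1, 2, 3, 0, 1]),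
  (86, 120, [0, 1, 2, 0, 1, 2, 0, 1, 2, 0, 1, 2, 0, 1, 0, 1, 2], [3, 0, 1, 2, 0, 1, 0, 3, 2, 0, 1, 0, 1, 3], [0, 1, 2, 3, 0, 1, 2, 3, 0, 1, 2, 3, 0, 1, 2, 3, 0, 1, 2, 3]),
  (206, 510, [0, 1, 2, 0, 1, 2, 0, 1, 2, 0, 1, 2, 0, 1, 2, 0, 1, 2, 0, 1, 2, 0], [3, 1, 0, 3], [0, 2, 3, 0, 1, 2, 3, 0, 1, 2, 3, 0, 1, 2, 3, 0, 1, 2, 3, 0, 1, 2, 3, 0, 1, 2, 3, 0, 1]),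
  (716, 680, [0, 1, 2, 0, 1, 2, 0, 1, 2, 0, 1, 2, 0, 1, 2, 0, 1, 2, 0, 1, 2, 0, 1, 2, 0, 1, 2], [3], [0, 1, 2, 3, 0, 1, 2, 3, 0, 1, 2, 3, 0, 1, 2, 3, 0, 1, 2, 3, 0, 1, 2, 3, 0, 1, 2, 3, 0, 1, 2, 0]),
  (1396, 1360, [0, 1, 2, 0, 1, 2, 0, 1, 2, 0, 1, 2, 0, 1, 2, 0, 1, 2, 0, 1, 2, 0, 1, 2, 0, 1, 2, 0, 1, 2, 0, 1], [3, 0, 1, 0, 1, 3], [0, 1, 2, 3, 0, 1, 2, 3, 0, 1, 2, 3, 0, 1, 2, 3, 0, 1, 2, 3]),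
  (2756, 1360, [0, 1, 2, 0, 1, 2, 0, 1, 2, 0, 1, 2, 0, 1, 2, 0, 1, 2, 0, 1, 2, 0, 1, 2, 0, 1, 2, 0, 1], [3, 0, 1, 0, 3], [0, 1, 2, 3, 0, 1, 2, 3, 0, 1, 2, 3, 0, 1, 2, 3, 0, 1, 2, 3, 0, 1, 2]),
  (4116, 2040, [0, 1, 2, 0, 1, 2, 0, 1, 2, 0, 1, 2, 0, 1, 2, 0, 1, 2, 0, 1, 2, 0, 1, 2, 0, 1, 2, 0, 1], [3, 1, 0, 1, 3], [0, 1, 2, 3, 0, 1, 2, 3, 0, 1, 2, 3, 0, 1, 2, 3, 0, 1, 2, 3, 0, 1, 2])]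

theorem hcov : rngCover 6156 1 orbs = true := by decide +kernel
theorem hprim : orbs.all (primOK J3x.par.nets 6156 J3x.par.subs) = true := by decide +kernel

end Cfsg.Agent.Lib.Helper13.J3Prim
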