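import Cfsg.Agent.Lib.Helper13.J3xP
import Cfsg.Agent.Lib.Helper13.J3SChk
import Cfsg.Agent.Lib.Helper13.J3Prim
set_option autoImplicit false
set_option maxRecDepth 100000

/-!
A group presented on four involutions `a, b, c, x` (`a, b, c` generate a group of order 8160) of
order 50232960: its order, a faithful primitive action on 6156 points, and simplicity.
-/

open Cfsg.Agent.Lib.Helper13.CE Cfsg.Spor Cfsg.Agent.Lib.Helper13.J3x

namespace Cfsg.Agent.Lib.Helper13.J3O

/-- the presented group. -/
abbrev P : Type := J3x.Grp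

/-- the subgroup of index 6156. -/
def Hs : Subgroup P :=
  Subgroup.closure {g | ∃ W ∈ par.subs, g = PresentedGroup.mk
    (coxRelators J3x.edges ∪ {r | r ∈ J3x.extra}) ((W.map FreeGroup.of).prod)}

theorem main : ∃ (X : Act (Fin 4) P 6156 13) (f : P ⧸ Hs ≃ Fin 6156),
    X.nets = par.nets ∧
    (∀ W : List (Fin 4), X.ev W = PresentedGroup.mk
      (coxRelators J3x.edges ∪ {r | r ∈ J3x.extra}) ((W.map FreeGroup.of).prod)) ∧
    (∀ g, f (QuotientGroup.mk g) = X.φ g 0) :=
  J3x.main

instance finite : Finite P := J3x.card_le.1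

/-- the action on the 6156 cosets is faithful, and the order of the group. -/
theorem faithful : ∃ (X : Act (Fin 4) P 6156 13) (f : P ⧸ Hs ≃ Fin 6156),
    X.nets = par.nets ∧
    (∀ W : List (Fin 4), X.ev W = PresentedGroup.mk
      (coxRelators J3x.edges ∪ {r | r ∈ J3x.extra}) ((W.map FreeGroup.of).prod)) ∧
    (∀ g, f (QuotientGroup.mk g) = X.φ g 0) ∧ Function.Injective X.φ ∧
    Nat.card P = 50232960 := by
  obtain ⟨X, f, hnets, hev, hf⟩ := main
  have h := X.injective_of_chainW J3S.levelsW (by rw [hnets]; exact J3S.hchainW)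
    50232960 (le_trans J3x.card_le.2 (by norm_num)) (by rw [J3S.hprodW])
  exact ⟨X, f, hnets, hev, hf, h.1, h.2⟩

theorem card : Nat.card P = 50232960 := by
  obtain ⟨X, f, -, -, -, -, h⟩ := faithful
  exact h

theorem simple : IsSimpleGroup P := by
  obtain ⟨X, f, hnets, hev, hf, hinj, hcard⟩ := faithful
  have hH : Hs = Subgroup.closure {g | ∃ W ∈ par.subs, g = X.ev W} := by
    unfold Hs
    congr 1
    ext g
    constructor
    · rintro ⟨W, hW, rfl⟩; exact ⟨W, hW, (hev W).symm⟩
    · rintro ⟨W, hW, rfl⟩; exact ⟨W, hW, hev W⟩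
  have hs : ∀ x, X.s x = PresentedGroup.of x := by
    intro x
    have := hev [x]
    simp only [Act.ev, List.map_cons, List.map_nil, List.prod_cons, List.prod_nil,
      mul_one] at this
    exact this
  have hgen : Subgroup.closure (Set.range X.s) = ⊤ := by
    have h1 : X.s = PresentedGroup.of
        (rels := coxRelators J3x.edges ∪ {r | r ∈ J3x.extra}) := funext hs
    rw [h1]
    exact PresentedGroup.closure_range_of _
  have hprim := X.isPreprimitive_of_orbs Hs f hf par.subs hH J3Prim.orbs J3Prim.hcov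
    (by rw [hnets]; exact J3Prim.hprim)
  refine X.isSimpleGroup_of_prime hinj hprim hgen 19 (by norm_num) ?_ (by rw [hcard]; norm_num)
    J3S.wit ?_
  · intro j hj
    rw [hcard] at hj
    have : j = 8160 := by omega
    rw [this]; norm_num
  · intro x
    have h := List.all_eq_true.mp J3S.hwit x (J3x.hletters x)
    rw [hnets]; exact h

end Cfsg.Agent.Lib.Helper13.J3O
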