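import Cfsg.Agent.Lib.Helper13.J3xData
import Cfsg.Agent.Lib.Helper13.CosetBase
set_option autoImplicit false
set_option maxRecDepth 100000

open Cfsg.Agent.Lib.Helper13.CE

namespace Cfsg.Agent.Lib.Helper13.J3S

def levelsW : List (List (List (Fin 4)) × ℕ × List ℕ × ℕ) := [([[0], [1], [2], [3]], 0, [3, 0, 1, 2, 3, 0, 1, 2, 3, 0, 1, 2, 3, 0, 1, 2, 3, 0, 1, 2, 3, 0, 1, 2, 3, 0, 1, 2, 3, 0, 1, 3], 6156),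
  ([[0], [1], [2], [3, 1, 2, 1, 3], [3, 0, 1, 2, 1, 0, 1, 2, 1, 0, 3]], 4116, [0, 1, 2, 3, 0, 1, 2, 3, 0, 1, 2, 3, 0, 1, 2, 3, 0, 1, 2, 3, 0, 1, 2, 3, 0, 1, 2, 3, 0, 1, 2, 3, 0, 1, 2, 3, 0], 2040),
  ([[0, 1, 0, 1, 0, 1, 0, 1, 0, 1, 0, 2, 1, 0, 1, 0, 1, 0, 3, 1, 2, 1, 3, 1, 0], [0, 1, 3, 1, 2, 1, 3, 0, 1, 0, 1, 0, 1, 0, 2, 1, 0, 1, 0, 1, 0, 1, 0, 1, 0], [3, 1, 2, 1, 3, 0, 1, 0, 1, 0, 1, 0, 3, 1, 2, 1, 3, 0, 1, 0, 1, 0, 3, 1, 2, 1, 3, 1, 0, 1, 0, 1]], 1, [0, 1, 2], 4)]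
def witL : List (List (List (Fin 4))) := [[[1, 2, 0, 3, 1, 3]],
  [[0, 2, 1, 0, 1, 3, 2]],
  [[1, 2, 0, 3, 1, 3]],
  [[0, 3, 1, 3, 0, 1, 2]]]
def wit (x : Fin 4) : List (List (Fin 4)) := witL.getD x.val []

end Cfsg.Agent.Lib.Helper13.J3S
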