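import Cfsg.Agent.Lib.Helper13.F4Vec
import Cfsg.Agent.Lib.Helper13.J3O
import Cfsg.Prelude.Def_Classical

set_option autoImplicit false
set_option maxRecDepth 100000

/-!
The triple cover of the presented group of order 50232960 as a group of unitary matrices of size
nine over a field with four elements: four involutions given by tables, which satisfy the
relators up to scalars.
-/

open Cfsg.Agent.Lib.Helper13.CE Cfsg.Spor Cfsg.Agent.Lib.Helper13.F4

namespace Cfsg.Agent.Lib.Helper13.J3SU

/-! ### relators of a presentation from words -/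

theorem lift_eq_one_of_words {α : Type} [DecidableEq α] (edges : List (α × ℕ × α))
    (extra : List (FreeGroup α)) (letters : List α) (extraW : List (List α))
    (hletters : ∀ x, x ∈ letters)
    (hextra : List.Forall₂ (fun r W => ∀ (K : Type) [Group K] (s : α → K),
        (∀ x, s x * s x = 1) → FreeGroup.lift s r = (W.map s).prod) extra extraW)
    {K : Type} [Group K] (s : α → K)
    (hW : ∀ W ∈ relsGen edges letters extraW, (W.map s).prod = 1) :
    ∀ r ∈ coxRelators edges ∪ {r | r ∈ extra}, FreeGroup.lift s r = 1 := by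
  have hsq : ∀ x, s x * s x = 1 := by
    intro x
    have := hW [x, x] (by
      unfold relsGen
      exact List.mem_append_left _ (List.mem_map.mpr ⟨x, hletters x, rfl⟩))
    simpa using this
  intro r hr
  rcases hr with ⟨x, _, y, _, rfl⟩ | hr
  · rw [map_pow, map_mul, FreeGroup.lift_apply_of, FreeGroup.lift_apply_of]
    by_cases hxy : x = y
    · subst hxy
      have h2 : coxLabel edges x x = 1 := by unfold coxLabel; rw [if_pos rfl]
      rw [h2, pow_one]; exact hsq x
    · rcases pairsLT_total letters x y (hletters x) (hletters y) hxy with h | h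
      · have := hW _ (by
          unfold relsGen
          exact List.mem_append_right _ (List.mem_append_left _
            (List.mem_map.mpr ⟨(x, y), h, rfl⟩)))
        rw [prod_cw] at this; exact this
      · have := hW _ (by
          unfold relsGen
          exact List.mem_append_right _ (List.mem_append_left _
            (List.mem_map.mpr ⟨(y, x), h, rfl⟩)))
        rw [prod_cw, coxLabel_comm edges y x] at this
        exact pow_mul_comm_eq_one _ _ _ this
  · obtain ⟨W, hWm, hP⟩ := forall2_left hextra r hr
    rw [hP K s hsq]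
    exact hW W (by
      unfold relsGen
      exact List.mem_append_right _ (List.mem_append_right _ hWm))

/-! ### hermitian involutions -/

section generic

variable {F : Type} [Field F] [CharP F 2]

theorem det_eq_one_of_sq (M : Matrix (Fin 9) (Fin 9) F) (h : M * M = 1) : M.det = 1 := by
  have h1 : M.det * M.det = 1 := by rw [← Matrix.det_mul, h, Matrix.det_one]
  have h2 : (2 : F) = 0 := CharTwo.two_eq_zero
  have h3 : (M.det - 1) ^ 2 = 0 := by
    have : (M.det - 1) ^ 2 = M.det * M.det - 2 * M.det + 1 := by ring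
    rw [this, h1, h2]; ring_nf; linear_combination h2
  have h4 := pow_eq_zero_iff (n := 2) (by norm_num) |>.mp h3
  linear_combination h4

theorem herm_pres (M : Matrix (Fin 9) (Fin 9) F) (hMM : M * M = 1)
    (hH : ∀ i j, M i j ^ 2 = M j i) (u v : Fin 9 → F) :
    Cfsg.hermForm 9 F 2 (M.mulVec u) (M.mulVec v) = Cfsg.hermForm 9 F 2 u v := by
  have : ExpChar F 2 := ExpChar.prime Nat.prime_two
  have h1 : ∀ i, (M.mulVec v i) ^ 2 = (M.transpose.mulVec (fun j => v j ^ 2)) i := by
    intro i
    simp only [Matrix.mulVec, dotProduct, Matrix.transpose_apply]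
    rw [sum_pow_char 2]
    apply Finset.sum_congr rfl
    intro j _
    rw [mul_pow, hH]
  unfold Cfsg.hermForm
  simp_rw [h1]
  have h2 : ∑ i, M.mulVec u i * M.transpose.mulVec (fun j => v j ^ 2) i =
      dotProduct (M.mulVec u) (M.transpose.mulVec (fun j => v j ^ 2)) := rfl
  have h3 : ∑ i, u i * v i ^ 2 = dotProduct u (fun j => v j ^ 2) := rfl
  rw [h2, h3, dotProduct_comm, Matrix.dotProduct_mulVec, ← Matrix.mulVec_transpose,
    Matrix.mulVec_mulVec, ← Matrix.transpose_mul, hMM, Matrix.transpose_one, Matrix.one_mulVec,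
    dotProduct_comm]

/-- the Frobenius map on codes. -/
def frob4 (c : ℕ) : ℕ :=
  match c with
  | 2 => 3
  | 3 => 2
  | c => c

theorem dec2_frob (ω : F) (hω : ω ^ 2 + ω + 1 = 0) (c : ℕ) (hc : c < 4) :
    dec2 ω (frob4 c) = dec2 ω c ^ 2 := by
  obtain ⟨v0, v1, v2, v3⟩ := dec2_vals ω
  have h2 : (2 : F) = 0 := CharTwo.two_eq_zero
  interval_cases c <;> simp only [frob4, v0, v1, v2, v3] <;>
    first
      | ring1
      | linear_combination (-1 : F) * hω + (ω + 1) * h2
      | linear_combination (-1 : F) * hω

/-- the matrix of a table is hermitian. -/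
def hermOK (T : List ℕ) : Bool :=
  (List.range 9).all (fun i => (List.range 9).all (fun j =>
    Nat.beq (cd (T.getD (4 * i + 1) 0) j) (frob4 (cd (T.getD (4 * j + 1) 0) i))))

theorem matOf_herm (ω : F) (hω : ω ^ 2 + ω + 1 = 0) (T : List ℕ) (h : hermOK T = true)
    (i j : Fin 9) : matOf ω T i j ^ 2 = matOf ω T j i := by
  simp only [hermOK, List.all_eq_true, List.mem_range] at h
  have h1 := Nat.eq_of_beq_eq_true (h i i.2 j j.2)
  unfold matOf
  rw [decN_eq, decN_eq, h1, dec2_frob ω hω _ (cd_lt _ _)]

end generic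

/-! ### the tables -/

def tabL : List (List ℕ) := [[0, 220917, 108378, 194991, 0, 112213, 187306, 224767, 0, 227030, 105323, 191933, 0, 150822, 230971, 117533, 0, 201087, 74389, 144362, 0, 21654, 43243, 64637, 0, 165161, 248382, 85783, 0, 144477, 202918, 77051, 0, 62182, 21371, 41373],
  [0, 260369, 89634, 173875, 0, 142836, 210520, 72620, 0, 206105, 80430, 139063, 0, 245768, 81932, 163844, 0, 120853, 158762, 242751, 0, 59163, 31021, 40502, 0, 232766, 116247, 150313, 0, 14978, 8131, 9537, 0, 74158, 144119, 201561],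
  [0, 84281, 167454, 247591, 0, 255507, 97057, 171314, 0, 123974, 161931, 236749, 0, 223056, 113056, 188144, 0, 5261, 10438, 15435, 0, 177495, 252585, 94206, 0, 55804, 28244, 47016, 0, 27753, 46270, 55511, 0, 3225, 1262, 2167],
  [0, 160252, 234068, 123816, 0, 28402, 46931, 55713, 0, 219610, 110191, 194485, 0, 158058, 245439, 120789, 0, 101469, 181414, 215291, 0, 247544, 84828, 167332, 0, 151774, 237671, 127161, 0, 219989, 109994, 194303, 0, 47587, 56945, 26514]]
def zW : List (Fin 4) := [3, 0, 1, 0, 2, 1, 3, 0, 1, 3, 0, 1, 3, 2, 1, 0, 1, 2, 0, 1, 0, 3, 2, 1, 0, 1, 2, 0, 1, 0, 1, 2, 0, 1, 2, 0, 1, 0, 1, 0]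

def tabs (l : Fin 4) : List ℕ := tabL.getD l.val []

theorem htab : ∀ l, tabOK (tabs l) = true := by decide +kernel

theorem hherm : ∀ l, hermOK (tabs l) = true := by decide +kernel

theorem hsq : ∀ l, scalOK tabs [l, l] 1 = true := by decide +kernel

theorem hrel : J3x.par.rels.all (fun W => scalOK tabs W 1 || scalOK tabs W 3) = true := by
  decide +kernel

theorem hz : scalOK tabs zW 3 = true := by decide +kernel

theorem hab : scalOK tabs (cw 0 1 17) 1 = true := by decide +kernel

theorem hcdA : cd ((tabs 0).getD (4 * 1 + 1) 0) 0 = 1 := by decide +kernel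

theorem hcdB : cd ((tabs 1).getD (4 * 1 + 1) 0) 0 = 0 := by decide +kernel

end Cfsg.Agent.Lib.Helper13.J3SU
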