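import Cfsg.Agent.Lib.Helper13.J3SU
import Cfsg.Prelude.Def_Sporadic

set_option autoImplicit false
set_option maxRecDepth 100000

/-!
The group generated by the four unitary involutions: its centre has order three and the
quotient by the centre is the presented group of order 50232960.
-/

open Cfsg.Agent.Lib.Helper13.CE Cfsg.Spor Cfsg.Agent.Lib.Helper13.F4

namespace Cfsg.Agent.Lib.Helper13.J3SU

section

variable {F : Type} [Field F] [CharP F 2] (ω : F) (hω : ω ^ 2 + ω + 1 = 0)

/-- the matrices. -/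
def mat (l : Fin 4) : Matrix (Fin 9) (Fin 9) F := matOf ω (tabs l)

include hω

theorem prod_scal (W : List (Fin 4)) (k : ℕ) (hk : k < 4) (h : scalOK tabs W k = true) :
    (W.map (mat ω)).prod = dec2 ω k • (1 : Matrix (Fin 9) (Fin 9) F) :=
  prod_eq_smul_one ω hω tabs htab W k hk h

theorem mat_sq (l : Fin 4) : mat ω l * mat ω l = 1 := by
  have h := prod_scal ω hω [l, l] 1 (by norm_num) (hsq l)
  rw [(dec2_vals ω).2.1, one_smul] at h
  simpa using h

theorem omega_ne_zero : ω ≠ 0 := by
  intro h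
  rw [h] at hω
  simp at hω

theorem omega_cube : (ω + 1) ^ 3 = 1 := by
  have h2 : (2 : F) = 0 := CharTwo.two_eq_zero
  have h3 : ω ^ 2 = ω + 1 := by linear_combination hω - (ω + 1) * h2
  have h4 : ω ^ 3 = 1 := by
    calc ω ^ 3 = ω * ω ^ 2 := by ring
      _ = ω * (ω + 1) := by rw [h3]
      _ = ω ^ 2 + ω := by ring
      _ = 1 := by linear_combination hω - h2
  calc (ω + 1) ^ 3 = (ω ^ 2) ^ 3 := by rw [h3]
    _ = (ω ^ 3) ^ 2 := by ring
    _ = 1 := by rw [h4, one_pow]

theorem mat_not_comm : mat ω 0 * mat ω 1 ≠ mat ω 1 * mat ω 0 := by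
  intro hc
  have hA := mat_sq ω hω 0
  have hB := mat_sq ω hω 1
  have h17 := prod_scal ω hω (cw 0 1 17) 1 (by norm_num) hab
  rw [(dec2_vals ω).2.1, one_smul, prod_cw] at h17
  have h2 : (mat ω 0 * mat ω 1) ^ 2 = 1 := by
    rw [pow_two]
    calc mat ω 0 * mat ω 1 * (mat ω 0 * mat ω 1)
        = mat ω 0 * (mat ω 1 * mat ω 0) * mat ω 1 := by simp only [mul_assoc]
      _ = mat ω 0 * (mat ω 0 * mat ω 1) * mat ω 1 := by rw [hc]
      _ = (mat ω 0 * mat ω 0) * (mat ω 1 * mat ω 1) := by simp only [mul_assoc]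
      _ = 1 := by rw [hA, hB, mul_one]
  have h3 : mat ω 0 * mat ω 1 = 1 := by
    have : (mat ω 0 * mat ω 1) ^ 17 = ((mat ω 0 * mat ω 1) ^ 2) ^ 8 * (mat ω 0 * mat ω 1) := by
      rw [← pow_mul, ← pow_succ]
    rw [this, h2, one_pow, one_mul] at h17
    exact h17
  have h4 : mat ω 0 = mat ω 1 := by
    calc mat ω 0 = mat ω 0 * (mat ω 1 * mat ω 1) := by rw [hB, mul_one]
      _ = (mat ω 0 * mat ω 1) * mat ω 1 := by rw [mul_assoc]
      _ = mat ω 1 := by rw [h3, one_mul]
  have h5 := congrFun (congrFun h4 0) 1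
  unfold mat matOf at h5
  rw [decN_eq, decN_eq] at h5
  have e1 : cd ((tabs 0).getD (4 * ((1 : Fin 9) : ℕ) + 1) 0) ((0 : Fin 9) : ℕ) = 1 := hcdA
  have e2 : cd ((tabs 1).getD (4 * ((1 : Fin 9) : ℕ) + 1) 0) ((0 : Fin 9) : ℕ) = 0 := hcdB
  rw [e1, e2, (dec2_vals ω).1, (dec2_vals ω).2.1] at h5
  exact one_ne_zero h5

/-- the matrices as elements of the special linear group. -/
def sl (l : Fin 4) : Matrix.SpecialLinearGroup (Fin 9) F :=
  ⟨mat ω l, det_eq_one_of_sq _ (mat_sq ω hω l)⟩

theorem slToMat_sl (l : Fin 4) : Cfsg.slToMat 9 F (sl ω hω l) = mat ω l := rfl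

/-- the matrices as elements of the special unitary group. -/
def su (l : Fin 4) : Cfsg.SU 9 F 2 :=
  ⟨sl ω hω l, by
    intro u v
    rw [slToMat_sl]
    exact herm_pres (mat ω l) (mat_sq ω hω l) (matOf_herm ω hω _ (hherm l)) u v⟩

end

section

variable (F : Type) [Field F]

/-- the matrix of an element of the special unitary group. -/
def toM : Cfsg.SU 9 F 2 →* Matrix (Fin 9) (Fin 9) F :=
  (Cfsg.slToMat 9 F).comp (Subgroup.subtype _)

theorem toM_inj : Function.Injective (toM F) := by
  intro a b h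
  apply Subtype.ext
  apply Subtype.ext
  exact h

end

section main

variable {F : Type} [Field F] [CharP F 2] (ω : F) (hω : ω ^ 2 + ω + 1 = 0)

include hω

theorem toM_prod (W : List (Fin 4)) :
    toM F ((W.map (su ω hω)).prod) = (W.map (mat ω)).prod := by
  rw [map_list_prod, List.map_map]
  rfl

/-- the central element. -/
def zz : Cfsg.SU 9 F 2 := (zW.map (su ω hω)).prod

theorem toM_zz : toM F (zz ω hω) = (ω + 1) • (1 : Matrix (Fin 9) (Fin 9) F) := by
  unfold zz
  rw [toM_prod, prod_scal ω hω zW 3 (by norm_num) hz, (dec2_vals ω).2.2.2]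

theorem zz_comm (g : Cfsg.SU 9 F 2) : zz ω hω * g = g * zz ω hω := by
  apply toM_inj F
  rw [map_mul, map_mul, toM_zz]
  simp

theorem zz_pow : zz ω hω ^ 3 = 1 := by
  apply toM_inj F
  rw [map_pow, toM_zz, map_one, smul_pow, one_pow, omega_cube ω hω, one_smul]

theorem zz_ne_one : zz ω hω ≠ 1 := by
  intro h
  have h1 := congrArg (toM F) h
  rw [toM_zz, map_one] at h1
  have h2 := congrFun (congrFun h1 0) 0
  simp only [Matrix.smul_apply, Matrix.one_apply_eq, smul_eq_mul, mul_one] at h2
  exact omega_ne_zero ω hω (by linear_combination h2)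

theorem rel_prod (W : List (Fin 4)) (hW : W ∈ J3x.par.rels) :
    (W.map (su ω hω)).prod = 1 ∨ (W.map (su ω hω)).prod = zz ω hω := by
  have h := List.all_eq_true.mp hrel W hW
  rcases (Bool.or_eq_true _ _).mp h with h1 | h3
  · left
    apply toM_inj F
    rw [toM_prod, prod_scal ω hω W 1 (by norm_num) h1, (dec2_vals ω).2.1, one_smul, map_one]
  · right
    apply toM_inj F
    rw [toM_prod, prod_scal ω hω W 3 (by norm_num) h3, (dec2_vals ω).2.2.2, toM_zz]

/-- the group generated by the four matrices: its centre has order three, and the quotient by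
the centre is simple of order 50232960. -/
theorem main : ∃ H : Subgroup (Cfsg.SU 9 F 2), Nat.card (Subgroup.center H) = 3 ∧
    Cfsg.IsJ3 (H ⧸ Subgroup.center H) := by
  classical
  let S : Fin 4 → Cfsg.SU 9 F 2 := su ω hω
  let H : Subgroup (Cfsg.SU 9 F 2) := Subgroup.closure (Set.range S)
  have hSH : ∀ l, S l ∈ H := fun l => Subgroup.subset_closure ⟨l, rfl⟩
  let gH : Fin 4 → H := fun l => ⟨S l, hSH l⟩
  have hprodH : ∀ W : List (Fin 4), (W.map S).prod ∈ H := fun W =>
    H.list_prod_mem (by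
      intro x hx
      obtain ⟨l, _, rfl⟩ := List.mem_map.mp hx
      exact hSH l)
  have hcoe : ∀ W : List (Fin 4),
      (((W.map gH).prod : H) : Cfsg.SU 9 F 2) = (W.map S).prod := by
    intro W
    induction W with
    | nil => rfl
    | cons l W ih =>
      simp only [List.map_cons, List.prod_cons, Subgroup.coe_mul, ih]
      rfl
  let zH : H := ⟨zz ω hω, hprodH zW⟩
  have hzc : zH ∈ Subgroup.center H := by
    rw [Subgroup.mem_center_iff]
    intro g
    apply Subtype.ext
    exact (zz_comm ω hω g.1).symm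
  let N : Subgroup H := Subgroup.zpowers zH
  have hNc : N ≤ Subgroup.center H := by
    rw [Subgroup.zpowers_le]; exact hzc
  haveI hNn : N.Normal := ⟨fun n hn g => by
    have h1 := Subgroup.mem_center_iff.mp (hNc hn) g
    rw [h1, mul_inv_cancel_right]
    exact hn⟩
  have hcardN : Nat.card N = 3 := by
    rw [Nat.card_zpowers]
    apply orderOf_eq_prime
    · apply Subtype.ext
      exact zz_pow ω hω
    · intro h
      exact zz_ne_one ω hω (congrArg Subtype.val h)
  let s : Fin 4 → H ⧸ N := fun l => QuotientGroup.mk (gH l)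
  have hs : ∀ W ∈ relsGen J3x.edges J3x.par.letters J3x.extraW, (W.map s).prod = 1 := by
    intro W hW
    have hW' : W ∈ J3x.par.rels := by rw [J3x.hrels]; exact hW
    have h1 : (W.map s).prod = QuotientGroup.mk' N ((W.map gH).prod) := by
      rw [map_list_prod, List.map_map]
      rfl
    rw [h1, QuotientGroup.mk'_apply, QuotientGroup.eq_one_iff]
    rcases rel_prod ω hω W hW' with h | h
    · have h2 : (W.map gH).prod = 1 := Subtype.ext (by rw [hcoe]; exact h)
      rw [h2]; exact N.one_mem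
    · have h2 : (W.map gH).prod = zH := Subtype.ext (by rw [hcoe]; exact h)
      rw [h2]; exact Subgroup.mem_zpowers zH
  let φ : J3O.P →* H ⧸ N := PresentedGroup.toGroup
    (lift_eq_one_of_words J3x.edges J3x.extra J3x.par.letters J3x.extraW J3x.hletters
      J3x.hextra s hs)
  have hφ : ∀ l, φ (PresentedGroup.of l) = s l := fun l => PresentedGroup.toGroup.of _
  have key : ∀ g (hg : g ∈ Subgroup.closure (Set.range S)),
      (QuotientGroup.mk (⟨g, hg⟩ : H) : H ⧸ N) ∈ φ.range := by
    intro g hg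
    induction hg using Subgroup.closure_induction with
    | mem x hx =>
      obtain ⟨l, rfl⟩ := hx
      exact ⟨PresentedGroup.of l, hφ l⟩
    | one => exact ⟨1, map_one φ⟩
    | mul x y hx hy ihx ihy => exact φ.range.mul_mem ihx ihy
    | inv x hx ih => exact φ.range.inv_mem ih
  have hsurj : Function.Surjective φ := by
    intro q
    obtain ⟨h, rfl⟩ := QuotientGroup.mk_surjective q
    exact key h.1 h.2
  haveI : Finite (H ⧸ N) := Finite.of_surjective φ hsurj
  have hq : Nat.card (H ⧸ N) ≤ 50232960 := by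
    rw [← J3O.card]; exact Nat.card_le_card_of_surjective φ hsurj
  haveI : Finite N := Nat.finite_of_card_ne_zero (by rw [hcardN]; norm_num)
  haveI : Finite H := Finite.of_subgroup_quotient N
  have hH : Nat.card H = Nat.card (H ⧸ N) * 3 := by
    rw [← hcardN]; exact Subgroup.card_eq_card_quotient_mul_card_subgroup N
  let π : H ⧸ N →* H ⧸ Subgroup.center H :=
    QuotientGroup.map N (Subgroup.center H) (MonoidHom.id H) (fun x hx => hNc hx)
  let ψ : J3O.P →* H ⧸ Subgroup.center H := π.comp φ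
  have hψs : Function.Surjective ψ := by
    intro q
    obtain ⟨h, rfl⟩ := QuotientGroup.mk_surjective q
    obtain ⟨p, hp⟩ := hsurj (QuotientGroup.mk h)
    refine ⟨p, ?_⟩
    show π (φ p) = _
    rw [hp]
    rfl
  have hsimple := J3O.simple
  have hker : ψ.ker = ⊥ := by
    rcases hsimple.eq_bot_or_eq_top_of_normal ψ.ker inferInstance with h | h
    · exact h
    · exfalso
      have hall : ∀ h' : H, h' ∈ Subgroup.center H := by
        intro h'
        obtain ⟨p, hp⟩ := hψs (QuotientGroup.mk h')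
        have hpk : p ∈ ψ.ker := by rw [h]; trivial
        rw [MonoidHom.mem_ker] at hpk
        rw [hpk] at hp
        exact (QuotientGroup.eq_one_iff h').mp hp.symm
      have hc := Subgroup.mem_center_iff.mp (hall (gH 1)) (gH 0)
      have hc' : S 0 * S 1 = S 1 * S 0 := congrArg Subtype.val hc
      have hm := congrArg (toM F) hc'
      rw [map_mul, map_mul] at hm
      exact mat_not_comm ω hω hm
  have hψi : Function.Injective ψ := (MonoidHom.ker_eq_bot_iff ψ).mp hker
  let e : J3O.P ≃* H ⧸ Subgroup.center H := MulEquiv.ofBijective ψ ⟨hψi, hψs⟩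
  have hcardQ : Nat.card (H ⧸ Subgroup.center H) = 50232960 := by
    rw [← Nat.card_congr e.toEquiv, J3O.card]
  refine ⟨H, ?_, ⟨e.symm.isSimpleGroup, hcardQ⟩⟩
  have h1 := Subgroup.card_eq_card_quotient_mul_card_subgroup (Subgroup.center H)
  rw [hcardQ, hH] at h1
  have h2 : Nat.card N ∣ Nat.card (Subgroup.center H) := Subgroup.card_dvd_of_le hNc
  rw [hcardN] at h2
  obtain ⟨c, hc⟩ := h2
  have hpos : 0 < Nat.card (Subgroup.center H) := Nat.card_pos
  omega

end main

end Cfsg.Agent.Lib.Helper13.J3SU
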