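import Cfsg.Agent.Lib.Helper13.J3xA0
import Cfsg.Agent.Lib.Helper13.J3xA1
import Cfsg.Agent.Lib.Helper13.J3xA2
import Cfsg.Agent.Lib.Helper13.J3xA3
import Cfsg.Agent.Lib.Helper13.J3xA4
import Cfsg.Agent.Lib.Helper13.J3xA5
import Cfsg.Agent.Lib.Helper13.J3xA6
import Cfsg.Agent.Lib.Helper13.J3xA7
import Cfsg.Agent.Lib.Helper13.J3xA8
import Cfsg.Agent.Lib.Helper13.J3xA9
import Cfsg.Agent.Lib.Helper13.J3xA10
import Cfsg.Agent.Lib.Helper13.J3xA11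
import Cfsg.Agent.Lib.Helper13.J3xA12
import Cfsg.Agent.Lib.Helper13.J3xA13
set_option autoImplicit false
set_option maxRecDepth 100000

open Cfsg.Agent.Lib.Helper13.CE

namespace Cfsg.Agent.Lib.Helper13.J3x

theorem hT : treeOK par 4 tree Zs0 = true := by decide +kernel
theorem hcov : coverOK par ⟨Zs1, Ls5, 1345, parB.AR.flatten.reverse, parB.AS.reverse⟩ = true := by decide +kernel
theorem hrun : runA par ⟨Zs0, List.replicate 4 0, 1, [], []⟩ stepsA = some ⟨Zs1, Ls5, 1345, parB.AR.flatten.reverse, parB.AS.reverse⟩ :=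
  (runA_chunk_cons2 par Zs0 (List.replicate 4 0) 1 sA0 _ Zs1 Ls1 199 _ _ _ hC0
    (runA_chunk_cons2 par Zs1 Ls1 199 sA1 _ Zs1 Ls2 470 _ _ _ hC1
    (runA_chunk_cons2 par Zs1 Ls2 470 sA2 _ Zs1 Ls3 805 _ _ _ hC2
    (runA_chunk_cons2 par Zs1 Ls3 805 sA3 _ Zs1 Ls4 1219 _ _ _ hC3
    (runA_chunk_cons2 par Zs1 Ls4 1219 sA4 _ Zs1 Ls5 1345 _ _ _ hC4
    (runA_chunk_cons2 par Zs1 Ls5 1345 sA5 _ Zs1 Ls5 1345 _ _ _ hC5
    (runA_chunk_cons2 par Zs1 Ls5 1345 sA6 _ Zs1 Ls5 1345 _ _ _ hC6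
    (runA_chunk_cons2 par Zs1 Ls5 1345 sA7 _ Zs1 Ls5 1345 _ _ _ hC7
    (runA_chunk_cons2 par Zs1 Ls5 1345 sA8 _ Zs1 Ls5 1345 _ _ _ hC8
    (runA_chunk_cons2 par Zs1 Ls5 1345 sA9 _ Zs1 Ls5 1345 _ _ _ hC9
    (runA_chunk_cons2 par Zs1 Ls5 1345 sA10 _ Zs1 Ls5 1345 _ _ _ hC10
    (runA_chunk_cons2 par Zs1 Ls5 1345 sA11 _ Zs1 Ls5 1345 _ _ _ hC11
    (runA_chunk_cons2 par Zs1 Ls5 1345 sA12 _ Zs1 Ls5 1345 _ _ _ hC12
    (runA_of_chunkOK par Zs1 Ls5 1345 sA13 Zs1 Ls5 1345 _ _ hC13)))))))))))))).trans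
    (some_StA_eq _ _ _ _ _ _ rfl rfl rfl (by decide +kernel) (by decide +kernel))
theorem hA : checkA par 4 tree stepsA parB.AR.flatten parB.AS 1345 = true :=
  checkA_of_parts par 4 tree stepsA _ _ 1345 Zs0 Zs1 Ls5 hT hrun hcov

end Cfsg.Agent.Lib.Helper13.J3x
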