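import Cfsg.Agent.Lib.Helper13.Fi22x14080Data
set_option autoImplicit false
set_option maxRecDepth 100000

open Cfsg.Agent.Lib.Helper13.CE

namespace Cfsg.Agent.Lib.Helper13.O7Fi

theorem hBne : wpos Fi22x14080.nets ([.b] : List Cfsg.Spor.Fi22.Gen) 1 ≠ 1 := by decide +kernel

end Cfsg.Agent.Lib.Helper13.O7Fi
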