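import Cfsg.Agent.Lib.Helper13.Fi22O
import Cfsg.Agent.Lib.Helper13.F22KO
import Cfsg.Agent.Lib.Helper13.O7FiChk
set_option autoImplicit false
set_option maxRecDepth 100000

/-!
In the presented `Fi₂₂`, the subgroup generated by `b, …, i` is isomorphic to the presented
group of order 4585351680.
-/

open Cfsg.Agent.Lib.Helper13.CE Cfsg.Spor

namespace Cfsg.Agent.Lib.Helper13.O7Fi

/-- the homomorphism of the presented groups. -/
def iota : F22KO.P →* Fi22 :=
  presHom Fi22.edges Fi22.extra F22K8.edges F22K8.extra Fi22O.esub Fi22O.hsubNodes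
    Fi22O.hsubLab Fi22O.hsubExtra

theorem iota_of (x : Fin 8) :
    iota (PresentedGroup.of x) = PresentedGroup.of (Fi22O.esub x) :=
  presHom_of _ _ _ _ _ _ _ _ x

theorem hsubs1 : ∀ x : Fin 8, [Fi22O.esub x] ∈ Fi22x14080.par.subs := by decide

theorem hsubs2 : ∀ W ∈ Fi22x14080.par.subs, ∃ i, W = [Fi22O.esub i] := by decide

theorem range_eq : iota.range = Fi22O.HA := by
  apply le_antisymm
  · rw [MonoidHom.range_eq_map, ← PresentedGroup.closure_range_of, MonoidHom.map_closure,
      Subgroup.closure_le]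
    rintro _ ⟨_, ⟨x, rfl⟩, rfl⟩
    rw [iota_of]
    apply Subgroup.subset_closure
    refine ⟨[Fi22O.esub x], hsubs1 x, ?_⟩
    rw [List.map_singleton, List.prod_singleton]
    rfl
  · apply closure_subs_le_range (β := Fin 8) Fi22.edges Fi22.extra iota Fi22x14080.par.subs
    intro W hW
    obtain ⟨i, rfl⟩ := hsubs2 W hW
    exact ⟨Fi22O.esub i, rfl, ⟨PresentedGroup.of i, iota_of i⟩⟩

theorem b_ne_one : (PresentedGroup.of Fi22.Gen.b : Fi22) ≠ 1 := by
  obtain ⟨X, f, hnets, hev, hf, hinj, hcard⟩ := Fi22O.faithful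
  intro h
  have h1 := X.φ_ev_ne_one [.b] ⟨1, by norm_num⟩ (by rw [hnets]; exact hBne)
  apply h1
  rw [hev]
  have h2 : PresentedGroup.mk Fi22O.Rel ((([.b] : List Fi22.Gen).map FreeGroup.of).prod) = 1 := by
    rw [List.map_singleton, List.prod_singleton]
    exact h
  rw [h2, map_one]

theorem iota_injective : Function.Injective iota := by
  rw [← MonoidHom.ker_eq_bot_iff]
  rcases F22KO.simple.eq_bot_or_eq_top_of_normal iota.ker inferInstance with h | h
  · exact h
  · exfalso
    have h0 : (PresentedGroup.of 0 : F22KO.P) ∈ iota.ker := by rw [h]; trivial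
    rw [MonoidHom.mem_ker, iota_of] at h0
    exact b_ne_one h0

/-- the subgroup generated by `b, …, i` is isomorphic to the presented group. -/
noncomputable def equivHA : F22KO.P ≃* Fi22O.HA :=
  (MonoidHom.ofInjective iota_injective).trans (MulEquiv.subgroupCongr range_eq)

end Cfsg.Agent.Lib.Helper13.O7Fi
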