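import Cfsg.Agent.Lib.Helper13.F3Mat
import Cfsg.Agent.Lib.Helper13.F22KO
import Cfsg.Agent.Lib.Helper13.CosetWords
import Cfsg.Agent.S0292

set_option autoImplicit false
set_option maxRecDepth 100000

/-!
The presented group of order 4585351680 is isomorphic to `PΩ₇(3)`: eight isometries of the
quadratic form `x₀² + x₁y₁ + x₂y₂ + x₃y₃` over the integers modulo three, given by tables,
satisfy the relators.
-/

open Cfsg.Agent.Lib.Helper13.CE Cfsg.Spor Cfsg.Agent.Lib.Helper13.F3M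

namespace Cfsg.Agent.Lib.Helper13.O7M

/-- the tables of eight matrices (the negatives of eight reflections). -/
def tabL : List (List (List ℕ)) := [[[0, 2, 1, 1, 0, 2, 2], [0, 2, 0, 0, 0, 0, 0], [1, 2, 0, 1, 0, 2, 2], [1, 2, 1, 0, 0, 2, 2], [1, 2, 1, 1, 2, 2, 2], [2, 1, 2, 2, 0, 0, 1], [2, 1, 2, 2, 0, 1, 0]],
  [[0, 2, 0, 0, 2, 0, 0], [1, 1, 0, 0, 2, 0, 0], [0, 0, 2, 0, 0, 0, 0], [0, 0, 0, 2, 0, 0, 0], [1, 2, 0, 0, 1, 0, 0], [0, 0, 0, 0, 0, 2, 0], [0, 0, 0, 0, 0, 0, 2]],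
  [[0, 0, 1, 2, 2, 0, 2], [1, 2, 1, 2, 2, 0, 2], [0, 0, 2, 0, 0, 0, 0], [1, 0, 1, 1, 2, 0, 2], [0, 0, 0, 0, 2, 0, 0], [2, 0, 2, 1, 1, 2, 1], [1, 0, 1, 2, 2, 0, 1]],
  [[0, 2, 0, 1, 2, 1, 0], [1, 1, 0, 1, 2, 1, 0], [2, 1, 2, 2, 1, 2, 0], [0, 0, 0, 2, 0, 0, 0], [1, 2, 0, 1, 1, 1, 0], [0, 0, 0, 0, 0, 2, 0], [2, 1, 0, 2, 1, 2, 2]],
  [[2, 0, 0, 0, 0, 0, 0], [0, 0, 0, 0, 2, 0, 2], [0, 0, 2, 0, 0, 0, 0], [0, 1, 0, 2, 2, 0, 2], [0, 2, 0, 0, 0, 0, 1], [0, 0, 0, 0, 0, 2, 0], [0, 0, 0, 0, 0, 0, 2]],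
  [[0, 1, 0, 2, 0, 1, 2], [0, 2, 0, 0, 0, 0, 0], [2, 2, 2, 1, 0, 2, 1], [1, 1, 0, 1, 0, 1, 2], [2, 2, 0, 1, 2, 2, 1], [0, 0, 0, 0, 0, 2, 0], [1, 1, 0, 2, 0, 1, 1]],
  [[2, 0, 0, 0, 0, 0, 0], [0, 2, 0, 0, 0, 0, 0], [0, 0, 0, 0, 0, 2, 2], [0, 0, 1, 2, 0, 2, 2], [0, 0, 0, 0, 2, 0, 0], [0, 0, 2, 0, 0, 0, 1], [0, 0, 0, 0, 0, 0, 2]],
  [[0, 1, 0, 0, 1, 2, 0], [2, 1, 0, 0, 2, 1, 0], [1, 1, 2, 0, 1, 2, 0], [0, 0, 0, 2, 0, 0, 0], [2, 2, 0, 0, 1, 1, 0], [0, 0, 0, 0, 0, 2, 0], [0, 0, 0, 0, 0, 0, 2]]]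

def tabs (l : Fin 8) : List (List ℕ) := tabL.getD l.val []

theorem hrel : F22K8.par.rels.all (fun W => decide (prodL tabs W = idL)) = true := by
  decide +kernel

theorem hsq : ∀ l : Fin 8, mulL (tabs l) (tabs l) = idL := by decide +kernel

theorem hform : ∀ l : Fin 8, mulL (mulL (transpL (tabs l)) SL) (tabs l) = SL := by
  decide +kernel

theorem hnc : ent (mulL (tabs 0) (tabs 2)) 0 1 % 3 ≠ ent (mulL (tabs 2) (tabs 0)) 0 1 % 3 := by
  decide +kernel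

/-- the matrices. -/
def mat (l : Fin 8) : Matrix (Fin 7) (Fin 7) (ZMod 3) := matZ (tabs l)

theorem prod_one (W : List (Fin 8)) (hW : W ∈ F22K8.par.rels) : (W.map mat).prod = 1 := by
  have h := List.all_eq_true.mp hrel W hW
  have h1 : prodL tabs W = idL := of_decide_eq_true h
  have h2 := matZ_prodL tabs W
  rw [h1, matZ_idL] at h2
  exact h2.symm

theorem mat_sq (l : Fin 8) : mat l * mat l = 1 := by
  unfold mat
  rw [← matZ_mulL, hsq l, matZ_idL]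

theorem mat_not_comm : mat 0 * mat 2 ≠ mat 2 * mat 0 := by
  unfold mat
  rw [← matZ_mulL, ← matZ_mulL]
  exact matZ_ne _ _ 0 1 hnc

/-- the index equivalence. -/
def e7 : Unit ⊕ (Fin 3 ⊕ Fin 3) ≃ Fin 7 where
  toFun x := match x with
    | .inl _ => 0
    | .inr (.inl i) => ⟨i.val + 1, by have := i.isLt; omega⟩
    | .inr (.inr i) => ⟨i.val + 4, by have := i.isLt; omega⟩
  invFun j := if j.val = 0 then .inl () else
    if h2 : j.val ≤ 3 then .inr (.inl ⟨j.val - 1, by omega⟩)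
    else .inr (.inr ⟨j.val - 4, by have := j.isLt; omega⟩)
  left_inv := by intro x; revert x; decide
  right_inv := by intro x; revert x; decide

/-- the reindexing. -/
def Rm : Matrix (Fin 7) (Fin 7) (ZMod 3) ≃ₐ[ZMod 3]
    Matrix (Unit ⊕ (Fin 3 ⊕ Fin 3)) (Unit ⊕ (Fin 3 ⊕ Fin 3)) (ZMod 3) :=
  Matrix.reindexAlgEquiv (ZMod 3) (ZMod 3) e7.symm

theorem Rm_apply (M : Matrix (Fin 7) (Fin 7) (ZMod 3)) (x y : Unit ⊕ (Fin 3 ⊕ Fin 3)) :
    Rm M x y = M (e7 x) (e7 y) := rfl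

theorem Rm_mulVec (M : Matrix (Fin 7) (Fin 7) (ZMod 3))
    (u : Unit ⊕ (Fin 3 ⊕ Fin 3) → ZMod 3) :
    (Rm M).mulVec u = fun x => (M.mulVec (u ∘ e7.symm)) (e7 x) := by
  ext x
  simp only [Matrix.mulVec, dotProduct, Rm_apply, Function.comp_apply]
  exact Fintype.sum_equiv e7 _ _ (fun y => by simp)

theorem quad_eq (u : Unit ⊕ (Fin 3 ⊕ Fin 3) → ZMod 3) :
    Cfsg.quadFormOdd 3 (ZMod 3) u = Q7 (u ∘ e7.symm) := by
  unfold Cfsg.quadFormOdd
  rw [Fin.sum_univ_three]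
  rfl

theorem Rm_pres (l : Fin 8) (u : Unit ⊕ (Fin 3 ⊕ Fin 3) → ZMod 3) :
    Cfsg.quadFormOdd 3 (ZMod 3) ((Rm (mat l)).mulVec u) = Cfsg.quadFormOdd 3 (ZMod 3) u := by
  rw [quad_eq, quad_eq, Rm_mulVec]
  have h : (fun x => ((mat l).mulVec (u ∘ e7.symm)) (e7 x)) ∘ e7.symm =
      (mat l).mulVec (u ∘ e7.symm) := by
    ext j; simp
  rw [h]
  exact q7_pres (tabs l) (hform l) _

/-- the isometry group. -/
abbrev Iso : Type := Cfsg.isometryGroup (ZMod 3) (Cfsg.quadFormOdd 3 (ZMod 3))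

/-- the matrices as elements of the isometry group. -/
def gI (l : Fin 8) : Iso :=
  ⟨⟨Rm (mat l), Rm (mat l), by rw [← map_mul, mat_sq, map_one],
    by rw [← map_mul, mat_sq, map_one]⟩, by
    intro u _
    exact Rm_pres l u⟩

/-- the matrix of an isometry. -/
def toM (g : Iso) :
    Matrix (Unit ⊕ (Fin 3 ⊕ Fin 3)) (Unit ⊕ (Fin 3 ⊕ Fin 3)) (ZMod 3) :=
  ((g : Matrix.GeneralLinearGroup (Unit ⊕ (Fin 3 ⊕ Fin 3)) (ZMod 3)) : Matrix _ _ (ZMod 3))

theorem toM_mul (g h : Iso) : toM (g * h) = toM g * toM h := rfl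

theorem toM_one : toM 1 = 1 := rfl

theorem toM_gI (l : Fin 8) : toM (gI l) = Rm (mat l) := rfl

theorem toM_inj : Function.Injective toM := by
  intro g h e
  apply Subtype.ext
  apply Units.ext
  exact e

theorem toM_prod (W : List (Fin 8)) : toM ((W.map gI).prod) = Rm ((W.map mat).prod) := by
  induction W with
  | nil => simp [toM_one]
  | cons l W ih =>
    rw [List.map_cons, List.prod_cons, List.map_cons, List.prod_cons, toM_mul, ih, map_mul,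
      toM_gI]

theorem gI_rel : ∀ W ∈ relsGen F22K8.edges F22K8.par.letters F22K8.extraW,
    (W.map gI).prod = 1 := by
  intro W hW
  have hW' : W ∈ F22K8.par.rels := by rw [F22K8.hrels]; exact hW
  apply toM_inj
  rw [toM_prod, prod_one W hW', map_one, toM_one]

/-- the homomorphism to the isometry group. -/
def theta0 : F22KO.P →* Iso :=
  PresentedGroup.toGroup (lift_eq_one_of_relsGen F22K8.edges F22K8.extra F22K8.par.letters
    F22K8.extraW F22K8.hletters F22K8.hextra gI gI_rel)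

theorem theta0_of (l : Fin 8) : theta0 (PresentedGroup.of l) = gI l :=
  PresentedGroup.toGroup.of _

theorem theta0_mem (p : F22KO.P) : theta0 p ∈ commutator Iso := by
  have hp : p ∈ commutator F22KO.P := by rw [F22KO.commutator_eq_top]; trivial
  have h1 := Abelianization.commutator_subset_ker
    ((Abelianization.of (G := Iso)).comp theta0) hp
  rw [MonoidHom.mem_ker, MonoidHom.comp_apply] at h1
  rw [← Abelianization.ker_of, MonoidHom.mem_ker]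
  exact h1

/-- the homomorphism to the commutator subgroup. -/
def theta1 : F22KO.P →* Cfsg.Omega (ZMod 3) (Cfsg.quadFormOdd 3 (ZMod 3)) :=
  theta0.codRestrict _ theta0_mem

/-- the homomorphism to the quotient by the centre. -/
def theta : F22KO.P →* Cfsg.POmega (ZMod 3) (Cfsg.quadFormOdd 3 (ZMod 3)) :=
  (QuotientGroup.mk' _).comp theta1

theorem theta_injective : Function.Injective theta := by
  rw [← MonoidHom.ker_eq_bot_iff]
  rcases F22KO.simple.eq_bot_or_eq_top_of_normal theta.ker inferInstance with h | h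
  · exact h
  · exfalso
    have h0 : (PresentedGroup.of 0 : F22KO.P) ∈ theta.ker := by rw [h]; trivial
    rw [MonoidHom.mem_ker] at h0
    have h1 : theta1 (PresentedGroup.of 0) ∈
        Subgroup.center (Cfsg.Omega (ZMod 3) (Cfsg.quadFormOdd 3 (ZMod 3))) :=
      (QuotientGroup.eq_one_iff _).mp h0
    have hc := Subgroup.mem_center_iff.mp h1 (theta1 (PresentedGroup.of 2))
    have hm : toM (theta0 (PresentedGroup.of 2) * theta0 (PresentedGroup.of 0)) =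
        toM (theta0 (PresentedGroup.of 0) * theta0 (PresentedGroup.of 2)) :=
      congrArg (fun z : Cfsg.Omega (ZMod 3) (Cfsg.quadFormOdd 3 (ZMod 3)) => toM (z : Iso)) hc
    rw [toM_mul, toM_mul, theta0_of, theta0_of, toM_gI, toM_gI, ← map_mul, ← map_mul] at hm
    exact mat_not_comm (Rm.injective hm).symm

theorem card_POmega :
    Nat.card (Cfsg.POmega (ZMod 3) (Cfsg.quadFormOdd 3 (ZMod 3))) = 4585351680 := by
  have h := Cfsg.Agent.S0292.result (F := ZMod 3) (q := 3) (ZMod.card 3) (by decide) 3 le_rfl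
  have h2 : (3 : ℕ) ^ (3 ^ 2) * ∏ i ∈ Finset.range 3, (3 ^ (2 * (i + 1)) - 1) = 9170703360 := by
    decide
  rw [h2] at h
  omega

/-- the presented group is isomorphic to `PΩ₇(3)`. -/
noncomputable def equivPOmega :
    F22KO.P ≃* Cfsg.POmega (ZMod 3) (Cfsg.quadFormOdd 3 (ZMod 3)) :=
  haveI : Finite (Cfsg.POmega (ZMod 3) (Cfsg.quadFormOdd 3 (ZMod 3))) :=
    Nat.finite_of_card_ne_zero (by rw [card_POmega]; norm_num)
  MulEquiv.ofBijective theta
    (theta_injective.bijective_of_nat_card_le (by rw [card_POmega, F22KO.card]))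

end Cfsg.Agent.Lib.Helper13.O7M
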