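import Cfsg.Agent.Lib.Helper13.F4VecN
import Cfsg.Agent.Lib.Helper13.HeNO
import Cfsg.Agent.Lib.Helper13.CosetWords
import Cfsg.Agent.S0245

set_option autoImplicit false
set_option maxRecDepth 100000

/-!
The presented group of order 979200 is isomorphic to the symplectic group of dimension four over
a field with four elements: four symplectic involutions, given by tables, satisfy the relators.
-/

open Cfsg.Agent.Lib.Helper13.CE Cfsg.Spor Cfsg.Agent.Lib.Helper13.F4N
open Cfsg.Agent.Lib.Helper13.F4 (dec2 decN cd cd_lt dec2_vals decN_eq)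

namespace Cfsg.Agent.Lib.Helper13.Sp44

/-- the tables of four matrices, of their transposes, and of the matrix of the form. -/
def tabL : List (List ℕ) := [[0, 1, 2, 3, 0, 4, 8, 12, 0, 17, 34, 51, 0, 68, 136, 204],
  [0, 64, 128, 192, 0, 144, 224, 112, 0, 6, 11, 13, 0, 1, 2, 3],
  [0, 1, 2, 3, 0, 4, 8, 12, 0, 17, 34, 51, 0, 64, 128, 192],
  [0, 1, 2, 3, 0, 4, 8, 12, 0, 27, 45, 54, 0, 66, 131, 193],
  [0, 17, 34, 51, 0, 68, 136, 204, 0, 16, 32, 48, 0, 64, 128, 192],
  [0, 96, 176, 208, 0, 16, 32, 48, 0, 4, 8, 12, 0, 9, 14, 7],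
  [0, 17, 34, 51, 0, 4, 8, 12, 0, 16, 32, 48, 0, 64, 128, 192],
  [0, 177, 210, 99, 0, 36, 56, 28, 0, 16, 32, 48, 0, 64, 128, 192],
  [0, 16, 32, 48, 0, 64, 128, 192, 0, 1, 2, 3, 0, 4, 8, 12]]

def tabs (l : Fin 9) : List ℕ := tabL.getD l.val []

/-- the index of a matrix. -/
def up (l : Fin 4) : Fin 9 := ⟨l.val, by omega⟩

/-- the index of its transpose. -/
def tr (l : Fin 4) : Fin 9 := ⟨l.val + 4, by omega⟩

theorem htab : ∀ l, tabOK 4 (tabs l) = true := by decide +kernel

theorem hrel : HeN.par.rels.all (fun W => scalOK 4 tabs (W.map up) 1) = true := by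
  decide +kernel

theorem hsymp : ∀ l : Fin 4, scalOK 4 tabs [up l, 8, tr l, 8] 1 = true := by decide +kernel

theorem hJJ : scalOK 4 tabs [8, 8] 1 = true := by decide +kernel

theorem htr : ∀ l : Fin 4, ∀ i j : Fin 4, cd ((tabs (tr l)).getD (4 * j.val + 1) 0) i.val =
    cd ((tabs (up l)).getD (4 * i.val + 1) 0) j.val := by decide +kernel

theorem hJ : ∀ i j : Fin 4, cd ((tabs 8).getD (4 * j.val + 1) 0) i.val =
    if (i.val + 2) % 4 = j.val then 1 else 0 := by decide +kernel

theorem hA : cd ((tabs 0).getD (4 * 2 + 1) 0) 0 = 1 := by decide +kernel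

section

variable {K : Type} [Field K] [CharP K 2] (ω : K) (hω : ω ^ 2 + ω + 1 = 0)

/-- the matrices. -/
def mat (l : Fin 9) : Matrix (Fin 4) (Fin 4) K := matOf 4 ω (tabs l)

omit [CharP K 2] in
theorem mat_tr (l : Fin 4) : mat ω (tr l) = (mat ω (up l)).transpose := by
  ext i j
  simp only [Matrix.transpose_apply]
  unfold mat matOf
  rw [decN_eq, decN_eq, htr l i j]

/-- the index equivalence. -/
def e4 : Fin 2 ⊕ Fin 2 ≃ Fin 4 := finSumFinEquiv (m := 2) (n := 2)

theorem e4_inl (i : Fin 2) : ((e4 (Sum.inl i) : Fin 4) : ℕ) = i.val := rfl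

theorem e4_inr (i : Fin 2) : ((e4 (Sum.inr i) : Fin 4) : ℕ) = 2 + i.val := rfl

/-- the reindexing. -/
def R : Matrix (Fin 4) (Fin 4) K ≃ₐ[K] Matrix (Fin 2 ⊕ Fin 2) (Fin 2 ⊕ Fin 2) K :=
  Matrix.reindexAlgEquiv K K e4.symm

theorem R_apply (M : Matrix (Fin 4) (Fin 4) K) (x y : Fin 2 ⊕ Fin 2) :
    R M x y = M (e4 x) (e4 y) := rfl

theorem R_transpose (M : Matrix (Fin 4) (Fin 4) K) : (R M).transpose = R M.transpose := rfl

theorem R_J : R (mat ω 8) = Matrix.J (Fin 2) K := by
  have hm1 : (-1 : K) = 1 := CharTwo.neg_eq 1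
  obtain ⟨v0, v1, -, -⟩ := dec2_vals ω
  ext x y
  rw [R_apply]
  unfold mat matOf
  rw [decN_eq, hJ]
  rcases x with i | i <;> rcases y with j | j <;> fin_cases i <;> fin_cases j <;>
    simp [Matrix.J, e4_inl, e4_inr, v0, v1, hm1]

include hω

theorem prod_one (W : List (Fin 9)) (h : scalOK 4 tabs W 1 = true) :
    (W.map (mat ω)).prod = 1 := by
  have h1 := prod_eq_smul_one 4 ω hω tabs htab W 1 (by norm_num) h
  rw [(dec2_vals ω).2.1, one_smul] at h1
  exact h1

theorem mat_symp (l : Fin 4) :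
    mat ω (up l) * mat ω 8 * (mat ω (up l)).transpose = mat ω 8 := by
  have h1 := prod_one ω hω [up l, 8, tr l, 8] (hsymp l)
  have h2 := prod_one ω hω [8, 8] hJJ
  simp only [List.map_cons, List.map_nil, List.prod_cons, List.prod_nil, mul_one] at h1 h2
  rw [mat_tr] at h1
  calc mat ω (up l) * mat ω 8 * (mat ω (up l)).transpose
      = mat ω (up l) * mat ω 8 * (mat ω (up l)).transpose * (mat ω 8 * mat ω 8) := by
        rw [h2, mul_one]
    _ = (mat ω (up l) * (mat ω 8 * ((mat ω (up l)).transpose * mat ω 8))) * mat ω 8 := by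
        simp only [mul_assoc]
    _ = mat ω 8 := by rw [h1, one_mul]

/-- the matrices as elements of the symplectic group. -/
def g (l : Fin 4) : Matrix.symplecticGroup (Fin 2) K :=
  ⟨R (mat ω (up l)), by
    rw [SymplecticGroup.mem_iff, ← R_J ω, R_transpose, ← map_mul, ← map_mul,
      mat_symp ω hω l]⟩

theorem coe_prod (W : List (Fin 4)) :
    (((W.map (g ω hω)).prod : Matrix.symplecticGroup (Fin 2) K) :
      Matrix (Fin 2 ⊕ Fin 2) (Fin 2 ⊕ Fin 2) K) =
      R ((W.map (fun l => mat ω (up l))).prod) := by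
  induction W with
  | nil => simp
  | cons l W ih =>
    rw [List.map_cons, List.prod_cons, List.map_cons, List.prod_cons, map_mul, ← ih]
    rfl

theorem g_rel : ∀ W ∈ relsGen HeN.edges HeN.par.letters HeN.extraW,
    (W.map (g ω hω)).prod = 1 := by
  intro W hW
  have hW' : W ∈ HeN.par.rels := by rw [HeN.hrels]; exact hW
  have h := List.all_eq_true.mp hrel W hW'
  have h1 := prod_one ω hω (W.map up) h
  rw [List.map_map] at h1
  apply Subtype.ext
  rw [coe_prod]
  have h2 : W.map (fun l => mat ω (up l)) = W.map (mat ω ∘ up) := rfl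
  rw [h2, h1, map_one]
  rfl

/-- the homomorphism from the presented group. -/
def theta : HeNO.P →* Matrix.symplecticGroup (Fin 2) K :=
  PresentedGroup.toGroup (lift_eq_one_of_relsGen HeN.edges HeN.extra HeN.par.letters HeN.extraW
    HeN.hletters HeN.hextra (g ω hω) (g_rel ω hω))

theorem theta_of (l : Fin 4) : theta ω hω (PresentedGroup.of l) = g ω hω l :=
  PresentedGroup.toGroup.of _

theorem theta_injective : Function.Injective (theta ω hω) := by
  rw [← MonoidHom.ker_eq_bot_iff]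
  rcases HeNO.simple.eq_bot_or_eq_top_of_normal (theta ω hω).ker inferInstance with h | h
  · exact h
  · exfalso
    have h0 : (PresentedGroup.of 0 : HeNO.P) ∈ (theta ω hω).ker := by rw [h]; trivial
    rw [MonoidHom.mem_ker, theta_of] at h0
    have h1 : R (mat ω (up 0)) = (1 : Matrix (Fin 2 ⊕ Fin 2) (Fin 2 ⊕ Fin 2) K) :=
      congrArg Subtype.val h0
    have h2 : mat ω (up 0) = 1 := by
      apply (R (K := K)).injective
      rw [h1, map_one]
    have h3 := congrFun (congrFun h2 0) 2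
    unfold mat matOf at h3
    rw [decN_eq] at h3
    have e1 : cd ((tabs (up 0)).getD (4 * ((2 : Fin 4) : ℕ) + 1) 0) ((0 : Fin 4) : ℕ) = 1 := hA
    rw [e1, (dec2_vals ω).2.1] at h3
    simp at h3

end

theorem card_sp (K : Type) [Field K] [Fintype K] (hK : Fintype.card K = 4) :
    Nat.card (Matrix.symplecticGroup (Fin 2) K) = 979200 := by
  have h := Cfsg.Agent.S0245.result (F := K) (q := 4) hK 2
  rw [h]
  decide

/-- the presented group is isomorphic to the symplectic group. -/
noncomputable def equivSp {K : Type} [Field K] [CharP K 2] [Fintype K]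
    (hK : Fintype.card K = 4) (ω : K) (hω : ω ^ 2 + ω + 1 = 0) :
    HeNO.P ≃* Matrix.symplecticGroup (Fin 2) K :=
  haveI : Finite (Matrix.symplecticGroup (Fin 2) K) :=
    Nat.finite_of_card_ne_zero (by rw [card_sp K hK]; norm_num)
  MulEquiv.ofBijective (theta ω hω)
    ((theta_injective ω hω).bijective_of_nat_card_le (by rw [card_sp K hK, HeNO.card]))

end Cfsg.Agent.Lib.Helper13.Sp44
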