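import Cfsg.Agent.Lib.Helper13.Sp44

set_option autoImplicit false

/-!
A field with four elements over which the presented group of order 979200 is the symplectic
group of dimension four.
-/

namespace Cfsg.Agent.Lib.Helper13.Sp44

theorem exists_omega (F : Type) [Field F] [Fintype F] (hcard : Fintype.card F = 4) :
    ∃ ω : F, ω ^ 2 + ω + 1 = 0 := by
  classical
  have hx : ∃ x : F, x ≠ 0 ∧ x ≠ 1 := by
    by_contra hne
    have hne' : ∀ x : F, x ≠ 0 → x = 1 := by
      intro x hx0
      by_contra hx1
      exact hne ⟨x, hx0, hx1⟩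
    have hle : Fintype.card F ≤ 2 := by
      calc Fintype.card F = (Finset.univ : Finset F).card := rfl
        _ ≤ ({0, 1} : Finset F).card := Finset.card_le_card (by
            intro x _
            by_cases h : x = 0
            · simp [h]
            · simp [hne' x h])
        _ ≤ 2 := Finset.card_le_two
    omega
  obtain ⟨x, hx0, hx1⟩ := hx
  refine ⟨x, ?_⟩
  have h3 : x ^ 3 = 1 := by
    have := FiniteField.pow_card_sub_one_eq_one x hx0
    rw [hcard] at this
    exact this
  have h4 : (x - 1) * (x ^ 2 + x + 1) = 0 := by linear_combination h3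
  rcases mul_eq_zero.mp h4 with h | h
  · exact absurd (sub_eq_zero.mp h) hx1
  · exact h

theorem exists_field : ∃ (K : Type) (_ : Field K) (_ : Fintype K), Fintype.card K = 4 ∧
    Nonempty (HeNO.P ≃* Matrix.symplecticGroup (Fin 2) K) := by
  classical
  letI : Fintype (GaloisField 2 2) := Fintype.ofFinite (GaloisField 2 2)
  have hcard : Fintype.card (GaloisField 2 2) = 4 := by
    have h := GaloisField.card 2 2 (by norm_num)
    rw [Nat.card_eq_fintype_card] at h
    rw [h]; norm_num
  obtain ⟨ω, hω⟩ := exists_omega (GaloisField 2 2) hcard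
  exact ⟨GaloisField 2 2, inferInstance, inferInstance, hcard, ⟨equivSp hcard ω hω⟩⟩

end Cfsg.Agent.Lib.Helper13.Sp44
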