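import Cfsg.Agent.Lib.Helper13.Suz1782Data
set_option autoImplicit false
set_option maxRecDepth 100000

open Cfsg.Agent.Lib.Helper13.CE

namespace Cfsg.Agent.Lib.Helper13.Suz1782

theorem hA : checkA par 7 tree stepsA parB.AR.flatten parB.AS 296 = true := by decide +kernel

end Cfsg.Agent.Lib.Helper13.Suz1782
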