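import Cfsg.Agent.Lib.Helper13.Suz1782Data
set_option autoImplicit false
set_option maxRecDepth 100000

open Cfsg.Agent.Lib.Helper13.CE

namespace Cfsg.Agent.Lib.Helper13.Suz1782

theorem hB : checkB parB stepsB = true := by decide +kernel
theorem hstat : staticOK par 1782 11 = true := by decide +kernel
theorem horb1 : orbOK par.nets 1782 par.subs orb1 1 416 = true := by decide +kernel
theorem horb417 : orbOK par.nets 1782 par.subs orb417 417 1365 = true := by decide +kernel

end Cfsg.Agent.Lib.Helper13.Suz1782
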