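import Cfsg.Agent.Lib.Helper13.SuzHData
set_option autoImplicit false
set_option maxRecDepth 100000

open Cfsg.Agent.Lib.Helper13.CE

namespace Cfsg.Agent.Lib.Helper13.SuzH

theorem hchainH : chainWK Suz1782.nets 1782 lettersH [] levelsH = true := by decide +kernel
theorem hprodH : (levelsH.map (fun l => l.2.2.2)).prod = 19595520 := by decide +kernel

end Cfsg.Agent.Lib.Helper13.SuzH
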