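import Cfsg.Agent.Lib.Helper13.Suz1782Data
import Cfsg.Agent.Lib.Helper13.CosetBaseK
set_option autoImplicit false
set_option maxRecDepth 100000

open Cfsg.Agent.Lib.Helper13.CE

namespace Cfsg.Agent.Lib.Helper13.SuzH

def lettersH : List (Cfsg.Spor.Suz.Gen) := [.a, .b, .c, .d, .f, .g]
def levelsH : List (List (List (Cfsg.Spor.Suz.Gen)) × ℕ × List ℕ × ℕ) := [([[.a], [.b], [.c], [.d], [.f], [.g]], 4, [0, 1, 2, 3, 4, 5, 0, 1, 2, 3, 4, 5, 0, 1, 2, 3, 4, 5, 0, 1, 2, 3, 4], 1620),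
  ([[.b], [.c], [.d, .c, .b, .a, .b, .c, .d], [.f, .b, .c, .d, .c, .b, .f], [.g, .b, .c, .d, .c, .b, .g], [.d, .c, .b, .g, .f, .b, .c, .d], [.f, .b, .a, .b, .f, .c, .b, .a]], 19, [0, 1, 2, 3, 4, 5, 6, 0, 1, 2, 3, 4, 5, 6, 0], 672),
  ([[.a, .b, .c, .f, .b, .a, .c, .d, .c, .a, .b, .f, .c, .b, .a], [.b, .d, .c, .b, .g, .f, .b, .c, .d, .c, .d, .c, .b, .g, .f, .b, .c, .d, .b], [.b, .d, .c, .b, .f, .g, .b, .c, .d, .c, .d, .c, .b, .f, .g, .b, .c, .d, .b], [.c, .b, .d, .c, .b, .f, .g, .b, .c, .d, .c, .d, .c, .b, .f, .g, .b, .c, .d, .b, .c]], 5, [0, 1, 2, 3, 0, 1], 18)]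

end Cfsg.Agent.Lib.Helper13.SuzH
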