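import Cfsg.Agent.Lib.Helper13.SuzK4A
import Cfsg.Agent.Lib.Helper13.SuzK4B
import Cfsg.Agent.Lib.Helper13.CosetE7
set_option autoImplicit false
set_option maxRecDepth 100000

open Cfsg.Agent.Lib.Helper13.CE Cfsg.Spor

namespace Cfsg.Agent.Lib.Helper13.SuzK4

def edges : List (Fin 4 × ℕ × Fin 4) :=
  [(0, 5, 1), (1, 3, 2), (2, 8, 3)]

def extra : List (FreeGroup (Fin 4)) := [
  FreeGroup.of 0 * ((FreeGroup.of 2 * FreeGroup.of 3) ^ 4)⁻¹ ]

theorem hnodes : ∀ x : Fin 4, x ∈ coxNodes edges := by decide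
theorem hletters : ∀ x : Fin 4, x ∈ par.letters := by decide
theorem hidx : Function.Injective par.idx := fun _ _ h => Fin.ext h

theorem hextra : List.Forall₂ (fun r W => ∀ (K : Type) [Group K] (s : Fin 4 → K),
    (∀ x, s x * s x = 1) → FreeGroup.lift s r = (W.map s).prod) extra extraW := by
  have hinv : ∀ (K : Type) [Group K] (s : Fin 4 → K), (∀ x, s x * s x = 1) → ∀ x, (s x)⁻¹ = s x :=
    fun K _ s hs x => inv_eq_of_mul_eq_one_right (hs x)
  refine List.Forall₂.cons ?_ (List.Forall₂.nil)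
  all_goals
    intro K _ s hs
    have hi := hinv K s hs
    simp only [map_mul, map_inv, FreeGroup.lift_apply_of, List.map_cons, List.map_nil,
      List.prod_cons, List.prod_nil, pow_succ, pow_zero, one_mul, mul_one, mul_inv_rev, hi, mul_assoc]

theorem hrels : par.rels = relsGen edges par.letters extraW := by decide +kernel

/-- the group presented by the sub-diagram. -/
abbrev Grp : Type := PresentedGroup (coxRelators edges ∪ {r | r ∈ extra})

theorem main : ∃ (X : Act (Fin 4) Grp 2160 12)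
    (f : Grp ⧸ Subgroup.closure {g | ∃ W ∈ par.subs, g = PresentedGroup.mk
      (coxRelators edges ∪ {r | r ∈ extra}) ((W.map FreeGroup.of).prod)} ≃ Fin 2160),
    X.nets = par.nets ∧
    (∀ W : List (Fin 4), X.ev W = PresentedGroup.mk (coxRelators edges ∪ {r | r ∈ extra})
      ((W.map FreeGroup.of).prod)) ∧
    (∀ g, f (QuotientGroup.mk g) = X.φ g 0) :=
  cox_main2 edges extra 2160 12 par extraW hnodes hletters hidx hextra hrels hstat 4 tree stepsA
    parB stepsB 78 hA rfl hB

theorem card_le : Finite Grp ∧ Nat.card Grp ≤ 2160 := by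
  obtain ⟨X, f, -, -, -⟩ := main
  have hbot : Subgroup.closure {g : Grp | ∃ W ∈ par.subs, g = PresentedGroup.mk
      (coxRelators edges ∪ {r | r ∈ extra}) ((W.map FreeGroup.of).prod)} = ⊥ := by
    rw [Subgroup.closure_eq_bot_iff]
    rintro g ⟨W, hW, -⟩
    have hs : par.subs = [] := rfl
    rw [hs] at hW
    exact absurd hW List.not_mem_nil
  have : Finite (Subgroup.closure {g : Grp | ∃ W ∈ par.subs, g = PresentedGroup.mk
      (coxRelators edges ∪ {r | r ∈ extra}) ((W.map FreeGroup.of).prod)}) := by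
    rw [hbot]; infer_instance
  have h1 : Nat.card (Subgroup.closure {g : Grp | ∃ W ∈ par.subs, g = PresentedGroup.mk
      (coxRelators edges ∪ {r | r ∈ extra}) ((W.map FreeGroup.of).prod)}) ≤ 1 := by
    rw [hbot, Subgroup.card_bot]
  have h2 := card_le_of_index _ 1 2160 h1 f
  exact ⟨h2.1, by simpa using h2.2⟩

end Cfsg.Agent.Lib.Helper13.SuzK4
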