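import Cfsg.Agent.Lib.Helper13.SuzK5A0
import Cfsg.Agent.Lib.Helper13.SuzK5A1
set_option autoImplicit false
set_option maxRecDepth 100000

open Cfsg.Agent.Lib.Helper13.CE

namespace Cfsg.Agent.Lib.Helper13.SuzK5

theorem hT : treeOK par 5 tree Zs0 = true := by decide +kernel
theorem hcov : coverOK par ⟨Zs1, Ls1, 35, parB.AR.flatten.reverse, parB.AS.reverse⟩ = true := by decide +kernel
theorem hrun : runA par ⟨Zs0, List.replicate 5 0, 1, [], []⟩ stepsA = some ⟨Zs1, Ls1, 35, parB.AR.flatten.reverse, parB.AS.reverse⟩ :=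
  (runA_chunk_cons2 par Zs0 (List.replicate 5 0) 1 sA0 _ Zs1 Ls1 35 _ _ _ hC0
    (runA_of_chunkOK par Zs1 Ls1 35 sA1 Zs1 Ls1 35 _ _ hC1)).trans
    (some_StA_eq _ _ _ _ _ _ rfl rfl rfl (by decide +kernel) (by decide +kernel))
theorem hA : checkA par 5 tree stepsA parB.AR.flatten parB.AS 35 = true :=
  checkA_of_parts par 5 tree stepsA _ _ 35 Zs0 Zs1 Ls1 hT hrun hcov

end Cfsg.Agent.Lib.Helper13.SuzK5
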