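import Cfsg.Agent.Lib.Helper13.SuzK6A
import Cfsg.Agent.Lib.Helper13.SuzK6B
import Cfsg.Agent.Lib.Helper13.SuzK5P
import Cfsg.Agent.Lib.Helper13.CosetE7
set_option autoImplicit false
set_option maxRecDepth 100000

open Cfsg.Agent.Lib.Helper13.CE Cfsg.Spor

namespace Cfsg.Agent.Lib.Helper13.SuzK6

def edges : List (Fin 6 × ℕ × Fin 6) :=
  [(0, 5, 1), (1, 3, 2), (2, 8, 3), (3, 3, 4), (1, 3, 5)]

def extra : List (FreeGroup (Fin 6)) := [
  FreeGroup.of 0 * ((FreeGroup.of 2 * FreeGroup.of 3) ^ 4)⁻¹,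
  (FreeGroup.of 0 * FreeGroup.of 1 * FreeGroup.of 2 * FreeGroup.of 5) ^ 5,
  ((FreeGroup.of 1 * FreeGroup.of 2 * FreeGroup.of 3 * FreeGroup.of 2 * FreeGroup.of 3) ^ 5 * FreeGroup.of 4) ^ 3 ]

theorem hnodes : ∀ x : Fin 6, x ∈ coxNodes edges := by decide
theorem hletters : ∀ x : Fin 6, x ∈ par.letters := by decide
theorem hidx : Function.Injective par.idx := fun _ _ h => Fin.ext h

theorem hextra : List.Forall₂ (fun r W => ∀ (K : Type) [Group K] (s : Fin 6 → K),
    (∀ x, s x * s x = 1) → FreeGroup.lift s r = (W.map s).prod) extra extraW := by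
  have hinv : ∀ (K : Type) [Group K] (s : Fin 6 → K), (∀ x, s x * s x = 1) → ∀ x, (s x)⁻¹ = s x :=
    fun K _ s hs x => inv_eq_of_mul_eq_one_right (hs x)
  refine List.Forall₂.cons ?_ (List.Forall₂.cons ?_ (List.Forall₂.cons ?_ (List.Forall₂.nil)))
  all_goals
    intro K _ s hs
    have hi := hinv K s hs
    simp only [map_mul, map_inv, FreeGroup.lift_apply_of, List.map_cons, List.map_nil,
      List.prod_cons, List.prod_nil, pow_succ, pow_zero, one_mul, mul_one, mul_inv_rev, hi, mul_assoc]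

theorem hrels : par.rels = relsGen edges par.letters extraW := by decide +kernel

/-- the group presented by the sub-diagram. -/
abbrev Grp : Type := PresentedGroup (coxRelators edges ∪ {r | r ∈ extra})

theorem main : ∃ (X : Act (Fin 6) Grp 416 9)
    (f : Grp ⧸ Subgroup.closure {g | ∃ W ∈ par.subs, g = PresentedGroup.mk
      (coxRelators edges ∪ {r | r ∈ extra}) ((W.map FreeGroup.of).prod)} ≃ Fin 416),
    X.nets = par.nets ∧
    (∀ W : List (Fin 6), X.ev W = PresentedGroup.mk (coxRelators edges ∪ {r | r ∈ extra})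
      ((W.map FreeGroup.of).prod)) ∧
    (∀ g, f (QuotientGroup.mk g) = X.φ g 0) :=
  cox_main2 edges extra 416 9 par extraW hnodes hletters hidx hextra hrels hstat 6 tree stepsA
    parB stepsB 70 hA rfl hB

/-- the sub-diagram. -/
def esub : Fin 5 → Fin 6 := ![0, 1, 2, 3, 4]

theorem hsubNodes : ∀ x ∈ coxNodes SuzK5.edges, esub x ∈ coxNodes edges := by decide

theorem hsubLab : ∀ x ∈ coxNodes SuzK5.edges, ∀ y ∈ coxNodes SuzK5.edges,
    coxLabel SuzK5.edges x y = coxLabel edges (esub x) (esub y) := by decide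

theorem hsubExtra : ∀ r ∈ SuzK5.extra, PresentedGroup.mk (coxRelators edges ∪ {r | r ∈ extra})
    (FreeGroup.map esub r) = 1 := by
  intro r hr
  apply PresentedGroup.one_of_mem
  right
  show _ ∈ extra
  simp only [SuzK5.extra, List.mem_cons, List.mem_nil_iff, or_false] at hr
  rcases hr with rfl | rfl
  all_goals simp [extra, esub]

theorem card_le : Finite Grp ∧ Nat.card Grp ≤ 416 * (280 * 2160) := by
  obtain ⟨X, f, -, -, -⟩ := main
  exact card_le_of_presHom edges extra SuzK5.edges SuzK5.extra esub hsubNodes hsubLab hsubExtra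
    _ SuzK5.card_le.1 SuzK5.card_le.2 par.subs (by decide) 416 f

end Cfsg.Agent.Lib.Helper13.SuzK6
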