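import Cfsg.Agent.Lib.Helper13.SuzL5Data
set_option autoImplicit false
set_option maxRecDepth 100000

open Cfsg.Agent.Lib.Helper13.CE

namespace Cfsg.Agent.Lib.Helper13.SuzL5

theorem hB : checkB parB stepsB = true := by decide +kernel
theorem hstat : staticOK par 56 6 = true := by decide +kernel

end Cfsg.Agent.Lib.Helper13.SuzL5
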