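import Cfsg.Agent.Lib.Helper13.SuzL6Data
set_option autoImplicit false
set_option maxRecDepth 100000

open Cfsg.Agent.Lib.Helper13.CE

namespace Cfsg.Agent.Lib.Helper13.SuzL6

theorem hC1 : chunkOK par Zs1 Ls1 72 sA1 Zs1 Ls1 72 (((parB.AR.flatten.drop 0).take 258).reverse) (((parB.AS.drop 0).take 5).reverse) = true := by decide +kernel

end Cfsg.Agent.Lib.Helper13.SuzL6
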