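import Cfsg.Agent.Lib.Helper13.SuzSData
set_option autoImplicit false
set_option maxRecDepth 100000

open Cfsg.Agent.Lib.Helper13.CE

namespace Cfsg.Agent.Lib.Helper13.SuzS

theorem hchainW : chainW Suz1782.nets 1782 [] levelsW = true := by decide +kernel
theorem hprodW : (levelsW.map (fun l => l.2.2.2)).prod = 448345497600 := by decide +kernel
theorem hwit : Suz1782.lettersW.all (fun x => witOK Suz1782.nets 11 11 x (wit x)) = true := by decide +kernel

end Cfsg.Agent.Lib.Helper13.SuzS
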