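import Cfsg.Agent.Lib.Helper13.Suz1782A
import Cfsg.Agent.Lib.Helper13.Suz1782B
import Cfsg.Agent.Lib.Helper13.SuzK6P
import Cfsg.Agent.Lib.Helper13.SuzSChk
set_option autoImplicit false
set_option maxRecDepth 100000

/-!
The presented sporadic Suzuki group: its order, a faithful rank three action on 1782 points, and
simplicity.
-/

open Cfsg.Agent.Lib.Helper13.CE Cfsg.Spor Cfsg.Agent.Lib.Helper13.Suz1782

namespace Cfsg.Agent.Lib.Helper13.SuzO

theorem hnodes : ∀ x : Suz.Gen, x ∈ coxNodes Suz.edges := by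
  intro x; cases x <;> decide

theorem hletters : ∀ x : Suz.Gen, x ∈ par.letters := by
  intro x; cases x <;> decide

theorem hidx : Function.Injective par.idx := by
  intro x y h
  cases x <;> cases y <;> first | rfl | exact absurd h (by decide)

theorem hextra : List.Forall₂ (fun r W => ∀ (K : Type) [Group K] (s : Suz.Gen → K),
    (∀ x, s x * s x = 1) → FreeGroup.lift s r = (W.map s).prod) Suz.extra extraW := by
  have hinv : ∀ (K : Type) [Group K] (s : Suz.Gen → K), (∀ x, s x * s x = 1) → ∀ x, (s x)⁻¹ = s x :=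
    fun K _ s hs x => inv_eq_of_mul_eq_one_right (hs x)
  refine List.Forall₂.cons ?_ (List.Forall₂.cons ?_ (List.Forall₂.cons ?_ (List.Forall₂.cons ?_
    (List.Forall₂.cons ?_ List.Forall₂.nil))))
  all_goals
    intro K _ s hs
    have hi := hinv K s hs
    simp only [Suz.a, Suz.b, Suz.c, Suz.d, Suz.e, Suz.f, Suz.g, map_mul, map_inv,
      FreeGroup.lift_apply_of, List.map_cons, List.map_nil, List.prod_cons, List.prod_nil,
      pow_succ, pow_zero, one_mul, mul_one, mul_inv_rev, hi, mul_assoc]

/-- the relators. -/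
abbrev Rel : Set (FreeGroup Suz.Gen) := coxRelators Suz.edges ∪ {r | r ∈ Suz.extra}

/-- the subgroup generated by `a, …, f`. -/
def Hs : Subgroup Suz :=
  Subgroup.closure {g | ∃ W ∈ par.subs, g = PresentedGroup.mk Rel ((W.map FreeGroup.of).prod)}

theorem main : ∃ (X : Act Suz.Gen Suz 1782 11) (f : Suz ⧸ Hs ≃ Fin 1782),
    X.nets = par.nets ∧
    (∀ W : List Suz.Gen, X.ev W = PresentedGroup.mk Rel ((W.map FreeGroup.of).prod)) ∧
    (∀ g, f (QuotientGroup.mk g) = X.φ g 0) :=
  cox_main2 Suz.edges Suz.extra 1782 11 par extraW hnodes hletters hidx hextra rfl hstat 7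
    tree stepsA parB stepsB 296 hA rfl hB

/-- the sub-diagram on `a, …, f`. -/
def esub : Fin 6 → Suz.Gen := ![.a, .b, .c, .d, .e, .f]

theorem hsubNodes : ∀ x ∈ coxNodes SuzK6.edges, esub x ∈ coxNodes Suz.edges := by decide

theorem hsubLab : ∀ x ∈ coxNodes SuzK6.edges, ∀ y ∈ coxNodes SuzK6.edges,
    coxLabel SuzK6.edges x y = coxLabel Suz.edges (esub x) (esub y) := by decide

theorem hsubExtra : ∀ r ∈ SuzK6.extra, PresentedGroup.mk Rel (FreeGroup.map esub r) = 1 := by
  intro r hr
  apply PresentedGroup.one_of_mem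
  right
  show _ ∈ Suz.extra
  simp only [SuzK6.extra, List.mem_cons, List.mem_nil_iff, or_false] at hr
  rcases hr with rfl | rfl | rfl
  all_goals simp [Suz.extra, esub, Suz.a, Suz.b, Suz.c, Suz.d, Suz.e, Suz.f, Suz.g]

theorem card_le : Finite Suz ∧ Nat.card Suz ≤ 1782 * (416 * (280 * 2160)) := by
  obtain ⟨X, f, -, -, -⟩ := main
  exact card_le_of_presHom Suz.edges Suz.extra SuzK6.edges SuzK6.extra esub hsubNodes hsubLab
    hsubExtra _ SuzK6.card_le.1 SuzK6.card_le.2 par.subs (by decide) 1782 f

instance finite : Finite Suz := card_le.1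

/-- the action on the 1782 cosets is faithful, and the order of the group. -/
theorem faithful : ∃ (X : Act Suz.Gen Suz 1782 11) (f : Suz ⧸ Hs ≃ Fin 1782),
    X.nets = par.nets ∧
    (∀ W : List Suz.Gen, X.ev W = PresentedGroup.mk Rel ((W.map FreeGroup.of).prod)) ∧
    (∀ g, f (QuotientGroup.mk g) = X.φ g 0) ∧ Function.Injective X.φ ∧
    Nat.card Suz = 448345497600 := by
  obtain ⟨X, f, hnets, hev, hf⟩ := main
  have h := X.injective_of_chainW SuzS.levelsW (by rw [hnets]; exact SuzS.hchainW)
    448345497600 (le_trans card_le.2 (by norm_num)) (by rw [SuzS.hprodW])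
  exact ⟨X, f, hnets, hev, hf, h.1, h.2⟩

theorem card : Nat.card Suz = 448345497600 := by
  obtain ⟨X, f, -, -, -, -, h⟩ := faithful
  exact h

theorem simple : IsSimpleGroup Suz := by
  obtain ⟨X, f, hnets, hev, hf, hinj, hcard⟩ := faithful
  have hH : Hs = Subgroup.closure {g | ∃ W ∈ par.subs, g = X.ev W} := by
    unfold Hs
    congr 1
    ext g
    constructor
    · rintro ⟨W, hW, rfl⟩; exact ⟨W, hW, (hev W).symm⟩
    · rintro ⟨W, hW, rfl⟩; exact ⟨W, hW, hev W⟩
  have hs : ∀ x, X.s x = PresentedGroup.of x := by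
    intro x
    have := hev [x]
    simp only [Act.ev, List.map_cons, List.map_nil, List.prod_cons, List.prod_nil,
      mul_one] at this
    exact this
  have hgen : Subgroup.closure (Set.range X.s) = ⊤ := by
    have h1 : X.s = PresentedGroup.of (rels := Rel) := funext hs
    rw [h1]
    exact PresentedGroup.closure_range_of _
  have hprim := X.isPreprimitive_of_rank3 Hs f hf par.subs hH orb1 orb417 416 1365
    (by norm_num) (by rw [hnets]; exact horb1) (by rw [hnets]; exact horb417)
    (by norm_num) (by norm_num)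
  refine X.isSimpleGroup_of_prime hinj hprim hgen 11 (by norm_num) ?_ (by rw [hcard]; norm_num)
    SuzS.wit ?_
  · intro j hj
    rw [hcard] at hj
    have : j = 251596800 := by omega
    rw [this]; norm_num
  · intro x
    have h := List.all_eq_true.mp SuzS.hwit x (hletters x)
    rw [hnets]; exact h

end Cfsg.Agent.Lib.Helper13.SuzO
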