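import Cfsg.Agent.Lib.Helper13.Suz1782Data
import Cfsg.Agent.Lib.Helper13.CosetBase
set_option autoImplicit false
set_option maxRecDepth 100000

open Cfsg.Agent.Lib.Helper13.CE

namespace Cfsg.Agent.Lib.Helper13.SuzS

def levelsW : List (List (List Cfsg.Spor.Suz.Gen) × ℕ × List ℕ × ℕ) := [([[.a], [.b], [.c], [.d], [.e], [.f], [.g]], 0, [6, 1, 2, 3, 4, 5, 6, 0, 1, 2, 3, 4, 5, 6, 0, 1, 2, 3, 4, 5, 6, 0, 1, 2, 3, 4, 5, 6, 0, 1, 2, 5], 1782),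
  ([[.a], [.b], [.c], [.d], [.e], [.f], [.g, .f, .g], [.g, .b, .a, .f, .b, .a, .b, .g]], 210, [5, 7, 1, 2, 3, 4, 5, 7, 1, 2, 3, 4, 5, 7, 1, 2, 3, 4, 5, 7, 1, 2, 3, 4, 5, 6, 7], 416),
  ([[.a], [.b], [.c], [.d], [.e], [.f, .g, .b, .a, .f, .b, .a, .b, .g, .b, .f], [.g, .b, .a, .f, .b, .a, .b, .g, .a, .b, .f]], 437, [0, 1, 2, 3, 4, 5, 2, 3, 4, 5, 0, 1, 2, 3, 4, 5, 0, 1, 2, 3, 4, 5, 0, 1], 1050),
  ([[.e], [.c, .b], [.a, .b, .a], [.d, .c, .b, .d, .c, .f, .b, .g, .b, .a, .b, .f, .a, .b, .g, .f, .d, .c, .d], [.d, .c, .b, .e, .d, .c, .d, .c, .b, .e, .d, .c, .d, .c, .d, .b, .c, .d, .e, .d, .a, .b, .c, .d, .b], [.b, .c], [.a, .c, .f, .b, .a, .g, .b, .a, .b, .f, .a, .b, .g]], 5, [0, 1, 2, 3, 4, 5, 6, 0, 1, 2, 3, 4, 5], 192),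
  ([[.b, .c, .d, .c, .b, .d, .c, .f, .b, .g, .b, .a, .b, .f, .a, .b, .g, .f, .d, .c, .d, .b, .c, .a, .b, .a], [.d, .c, .d, .f, .g, .b, .a, .f, .b, .a, .b, .g, .b, .f, .c, .d, .b, .c, .d, .a, .b, .a, .b, .c, .a, .b, .a]], 4, [0, 1], 3)]
def wit : Cfsg.Spor.Suz.Gen → List (List Cfsg.Spor.Suz.Gen)
  | .a => [[.g, .e, .b, .c, .d, .f]]
  | .b => [[.d, .f, .c, .e, .g, .b, .a]]
  | .c => [[.g, .a, .d, .c, .b, .d, .g, .a, .c, .a, .c, .f, .c, .b, .e]]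
  | .d => [[.a, .e, .b, .f, .c, .g, .d, .b], [.c, .b, .d, .f, .g, .e]]
  | .e => [[.e, .f, .g, .b, .c, .d], [.a, .e, .b, .f, .c, .g, .d, .b]]
  | .f => [[.c, .f, .d, .c, .a, .d, .b, .g, .b, .c, .f, .b, .e]]
  | .g => [[.e, .c, .f, .b, .a, .b, .g, .c, .d, .b]]

end Cfsg.Agent.Lib.Helper13.SuzS
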