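import Mathlib

set_option autoImplicit false

namespace Cfsg.Agent.Lib.Helper13

theorem mem_normalizer_of_map_conj_eq {G : Type*} [Group G] (A : Subgroup G) (g : G)
    (h : A.map (MulAut.conj g).toMonoidHom = A) : g ∈ Subgroup.normalizer (A : Set G) := by
  rw [Subgroup.mem_normalizer_iff]
  intro x
  constructor
  · intro hx
    rw [← h]
    exact ⟨x, hx, rfl⟩
  · intro hx
    have : g * x * g⁻¹ ∈ A.map (MulAut.conj g).toMonoidHom := by rw [h]; exact hx
    obtain ⟨b, hb, hbe⟩ := this
    have : b = x := by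
      simp only [MulEquiv.coe_toMonoidHom, MulAut.conj_apply] at hbe
      exact mul_left_cancel (mul_right_cancel hbe)
    rw [← this]; exact hb

theorem map_conj_eq_of_mem_normalizer {G : Type*} [Group G] (A : Subgroup G) (g : G)
    (h : g ∈ Subgroup.normalizer (A : Set G)) : A.map (MulAut.conj g).toMonoidHom = A := by
  rw [Subgroup.mem_normalizer_iff] at h
  ext x
  constructor
  · rintro ⟨a, ha, rfl⟩
    exact (h a).mp ha
  · intro hx
    refine ⟨g⁻¹ * x * g, ?_, ?_⟩
    · apply (h _).mpr
      have : g * (g⁻¹ * x * g) * g⁻¹ = x := by group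
      rw [this]; exact hx
    · simp only [MulEquiv.coe_toMonoidHom, MulAut.conj_apply]
      group

theorem map_conj_eq_iff_mem_normalizer {G : Type*} [Group G] (A : Subgroup G) (g : G) :
    A.map (MulAut.conj g).toMonoidHom = A ↔ g ∈ Subgroup.normalizer (A : Set G) :=
  ⟨mem_normalizer_of_map_conj_eq A g, map_conj_eq_of_mem_normalizer A g⟩

theorem mem_map_conj_iff {G : Type*} [Group G] (A : Subgroup G) (g x : G) :
    x ∈ A.map (MulAut.conj g).toMonoidHom ↔ g⁻¹ * x * g ∈ A := by
  constructor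
  · rintro ⟨a, ha, rfl⟩
    simp only [MulEquiv.coe_toMonoidHom, MulAut.conj_apply]
    have : g⁻¹ * (g * a * g⁻¹) * g = a := by group
    rw [this]; exact ha
  · intro hx
    refine ⟨g⁻¹ * x * g, hx, ?_⟩
    simp only [MulEquiv.coe_toMonoidHom, MulAut.conj_apply]
    group

theorem conj_mem_map_conj {G : Type*} [Group G] (A : Subgroup G) (g a : G) (ha : a ∈ A) :
    g * a * g⁻¹ ∈ A.map (MulAut.conj g).toMonoidHom := ⟨a, ha, rfl⟩

/-- the TI property elementwise: if `g` is not in the normalizer, no nontrivial element of `A` is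
conjugated into `A` by `g`. -/
theorem ti_elem {G : Type*} [Group G] (A : Subgroup G)
    (hti : ∀ h : G, A.map (MulAut.conj h).toMonoidHom = A ∨ A.map (MulAut.conj h).toMonoidHom ⊓ A = ⊥)
    (g : G) (hg : g ∉ Subgroup.normalizer (A : Set G)) (a : G) (ha : a ∈ A) (hga : g * a * g⁻¹ ∈ A) :
    a = 1 := by
  rcases hti g with h | h
  · exact absurd (mem_normalizer_of_map_conj_eq A g h) hg
  · have h1 : g * a * g⁻¹ ∈ A.map (MulAut.conj g).toMonoidHom ⊓ A :=
      ⟨conj_mem_map_conj A g a ha, hga⟩
    rw [h, Subgroup.mem_bot] at h1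
    have : a = g⁻¹ * (g * a * g⁻¹) * g := by group
    rw [this, h1]; group

/-- a conjugate of a TI subgroup is TI. -/
theorem ti_map_conj {G : Type*} [Group G] (A : Subgroup G)
    (hti : ∀ h : G, A.map (MulAut.conj h).toMonoidHom = A ∨ A.map (MulAut.conj h).toMonoidHom ⊓ A = ⊥)
    (g : G) (h : G) :
    (A.map (MulAut.conj g).toMonoidHom).map (MulAut.conj h).toMonoidHom = A.map (MulAut.conj g).toMonoidHom ∨
      (A.map (MulAut.conj g).toMonoidHom).map (MulAut.conj h).toMonoidHom ⊓ A.map (MulAut.conj g).toMonoidHom = ⊥ := by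
  have key : (A.map (MulAut.conj g).toMonoidHom).map (MulAut.conj h).toMonoidHom
      = (A.map (MulAut.conj (g⁻¹ * h * g)).toMonoidHom).map (MulAut.conj g).toMonoidHom := by
    rw [Subgroup.map_map, Subgroup.map_map]
    congr 1
    ext x
    simp only [MonoidHom.coe_comp, MulEquiv.coe_toMonoidHom, Function.comp_apply, MulAut.conj_apply]
    group
  rcases hti (g⁻¹ * h * g) with h1 | h1
  · left
    rw [key, h1]
  · right
    rw [key, ← Subgroup.map_inf _ _ _ (MulAut.conj g).injective, h1, Subgroup.map_bot]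

end Cfsg.Agent.Lib.Helper13
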