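import Mathlib
import Cfsg.Prelude.Def_SporadicCombinatorics

set_option autoImplicit false

namespace Cfsg.Agent.Lib.Helper13

open Cfsg

/-- Sum over `ZMod 3`. -/
theorem tg_sum3 {M : Type*} [AddCommMonoid M] (f : ZMod 3 → M) :
    ∑ r : ZMod 3, f r = f 0 + f 1 + f 2 :=
  Fin.sum_univ_three f

theorem tg_tetra_mem (a b : ZMod 3) : ![b, a, a + b, a + 2 * b] ∈ Cfsg.tetracode := by
  unfold Cfsg.tetracode
  rw [Submodule.mem_span_pair]
  refine ⟨a, b, ?_⟩
  ext i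
  fin_cases i <;> simp <;> ring

theorem tg_tetra_cases {t : Fin 4 → ZMod 3} (ht : t ∈ Cfsg.tetracode) :
    ∃ a b : ZMod 3, t = ![b, a, a + b, a + 2 * b] := by
  unfold Cfsg.tetracode at ht
  rw [Submodule.mem_span_pair] at ht
  obtain ⟨a, b, rfl⟩ := ht
  refine ⟨a, b, ?_⟩
  ext i
  fin_cases i <;> simp <;> ring

/-- The decidable form of the defining conditions. -/
def tgChk (x : Cfsg.ArrayPt → ZMod 3) (s : ZMod 3) : Prop :=
  (∀ i : Fin 4, x (i, 0) + x (i, 1) + x (i, 2) = -s) ∧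
    ∀ a b : ZMod 3, x (0, b) + x (1, a) + x (2, a + b) + x (3, a + 2 * b) = s

instance (x : Cfsg.ArrayPt → ZMod 3) (s : ZMod 3) : Decidable (tgChk x s) := by
  unfold tgChk; infer_instance

theorem tg_mem_iff (x : Cfsg.ArrayPt → ZMod 3) :
    x ∈ Cfsg.ternaryGolayCode ↔ ∃ s, tgChk x s := by
  constructor
  · rintro ⟨s, h1, h2⟩
    refine ⟨s, fun i => ?_, fun a b => ?_⟩
    · rw [← h1 i, tg_sum3]
    · have := h2 _ (tg_tetra_mem a b)
      rw [Fin.sum_univ_four] at this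
      simpa using this
  · rintro ⟨s, h1, h2⟩
    refine ⟨s, fun i => ?_, fun t ht => ?_⟩
    · rw [tg_sum3, h1 i]
    · obtain ⟨a, b, rfl⟩ := tg_tetra_cases ht
      rw [Fin.sum_univ_four]
      simpa using h2 a b

/-- Case analysis over the twelve positions. -/
theorem tg_forall_pt {P : Cfsg.ArrayPt → Prop}
    (h00 : P (0, 0)) (h01 : P (0, 1)) (h02 : P (0, 2))
    (h10 : P (1, 0)) (h11 : P (1, 1)) (h12 : P (1, 2))
    (h20 : P (2, 0)) (h21 : P (2, 1)) (h22 : P (2, 2))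
    (h30 : P (3, 0)) (h31 : P (3, 1)) (h32 : P (3, 2)) : ∀ p, P p := by
  rintro ⟨i, r⟩
  have hr : r = 0 ∨ r = 1 ∨ r = 2 := by revert r; decide
  have hi : i = 0 ∨ i = 1 ∨ i = 2 ∨ i = 3 := by revert i; decide
  rcases hi with rfl | rfl | rfl | rfl <;> rcases hr with rfl | rfl | rfl <;> assumption

/-- A word given by its table of twelve entries. -/
def tgTab (x00 x01 x02 x10 x11 x12 x20 x21 x22 x30 x31 x32 : ZMod 3) : Cfsg.ArrayPt → ZMod 3 :=
  fun p => (![![x00, x01, x02], ![x10, x11, x12], ![x20, x21, x22], ![x30, x31, x32]] :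
    Fin 4 → Fin 3 → ZMod 3) p.1 p.2

/-- The systematic parametrisation of the code by the entries at
`(0,0), (0,1), (0,2), (1,0), (1,1), (2,0)`. -/
def tgGen (a b c d e f : ZMod 3) : Cfsg.ArrayPt → ZMod 3 :=
  tgTab a b c d e (a + b + c + 2 * d + 2 * e) f (2 * b + c + 2 * d + e + f)
    (a + 2 * b + d + 2 * e + f) (a + 2 * b + 2 * c + 2 * d + 2 * f)
    (a + c + d + e + 2 * f) (2 * a + 2 * b + c + 2 * e + 2 * f)

set_option maxRecDepth 100000 in
theorem tgGen_chk : ∀ a b c d e f : ZMod 3, tgChk (tgGen a b c d e f) (2 * a + 2 * b + 2 * c) := by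
  decide +kernel

theorem tgGen_mem (a b c d e f : ZMod 3) : tgGen a b c d e f ∈ Cfsg.ternaryGolayCode :=
  (tg_mem_iff _).2 ⟨_, tgGen_chk a b c d e f⟩

set_option maxRecDepth 100000 in
theorem tg_unique_aux : ∀ u1 u2 u3 u4 u5 u6 s : ZMod 3,
    tgChk (tgTab 0 0 0 0 0 u1 0 u2 u3 u4 u5 u6) s →
      u1 = 0 ∧ u2 = 0 ∧ u3 = 0 ∧ u4 = 0 ∧ u5 = 0 ∧ u6 = 0 := by
  decide +kernel

theorem tg_eq_tab (x : Cfsg.ArrayPt → ZMod 3) :
    x = tgTab (x (0, 0)) (x (0, 1)) (x (0, 2)) (x (1, 0)) (x (1, 1)) (x (1, 2))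
      (x (2, 0)) (x (2, 1)) (x (2, 2)) (x (3, 0)) (x (3, 1)) (x (3, 2)) := by
  funext p
  revert p
  apply tg_forall_pt <;> rfl

theorem tg_unique {x : Cfsg.ArrayPt → ZMod 3} (hx : x ∈ Cfsg.ternaryGolayCode)
    (h1 : x (0, 0) = 0) (h2 : x (0, 1) = 0) (h3 : x (0, 2) = 0) (h4 : x (1, 0) = 0)
    (h5 : x (1, 1) = 0) (h6 : x (2, 0) = 0) : x = 0 := by
  obtain ⟨s, hs⟩ := (tg_mem_iff x).1 hx
  have hx' := tg_eq_tab x
  rw [h1, h2, h3, h4, h5, h6] at hx'
  rw [hx'] at hs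
  obtain ⟨e1, e2, e3, e4, e5, e6⟩ := tg_unique_aux _ _ _ _ _ _ s hs
  rw [e1, e2, e3, e4, e5, e6] at hx'
  rw [hx']
  funext p
  revert p
  apply tg_forall_pt <;> rfl

theorem tg_eq_gen {x : Cfsg.ArrayPt → ZMod 3} (hx : x ∈ Cfsg.ternaryGolayCode) :
    x = tgGen (x (0, 0)) (x (0, 1)) (x (0, 2)) (x (1, 0)) (x (1, 1)) (x (2, 0)) := by
  have hy : x - tgGen (x (0, 0)) (x (0, 1)) (x (0, 2)) (x (1, 0)) (x (1, 1)) (x (2, 0)) ∈
      Cfsg.ternaryGolayCode := Submodule.sub_mem _ hx (tgGen_mem _ _ _ _ _ _)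
  have h0 := tg_unique hy (sub_self _) (sub_self _) (sub_self _) (sub_self _) (sub_self _)
    (sub_self _)
  exact sub_eq_zero.1 h0

theorem tg_mem_iff_gen (x : Cfsg.ArrayPt → ZMod 3) :
    x ∈ Cfsg.ternaryGolayCode ↔ ∃ a b c d e f, x = tgGen a b c d e f :=
  ⟨fun hx => ⟨_, _, _, _, _, _, tg_eq_gen hx⟩, by
    rintro ⟨a, b, c, d, e, f, rfl⟩; exact tgGen_mem _ _ _ _ _ _⟩

/-- The parameter space of the code. -/
abbrev TgPar : Type := ZMod 3 × ZMod 3 × ZMod 3 × ZMod 3 × ZMod 3 × ZMod 3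

def tgGen' (c : TgPar) : Cfsg.ArrayPt → ZMod 3 :=
  tgGen c.1 c.2.1 c.2.2.1 c.2.2.2.1 c.2.2.2.2.1 c.2.2.2.2.2

theorem tgGen'_mem (c : TgPar) : tgGen' c ∈ Cfsg.ternaryGolayCode := tgGen_mem _ _ _ _ _ _

theorem tg_mem_iff_gen' (x : Cfsg.ArrayPt → ZMod 3) :
    x ∈ Cfsg.ternaryGolayCode ↔ ∃ c : TgPar, x = tgGen' c := by
  constructor
  · intro hx
    exact ⟨(x (0, 0), x (0, 1), x (0, 2), x (1, 0), x (1, 1), x (2, 0)), tg_eq_gen hx⟩
  · rintro ⟨c, rfl⟩; exact tgGen'_mem c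

theorem tgGen'_injective : Function.Injective tgGen' := by
  rintro ⟨a, b, c, d, e, f⟩ ⟨a', b', c', d', e', f'⟩ h
  have h1 : a = a' := congrFun h (0, 0)
  have h2 : b = b' := congrFun h (0, 1)
  have h3 : c = c' := congrFun h (0, 2)
  have h4 : d = d' := congrFun h (1, 0)
  have h5 : e = e' := congrFun h (1, 1)
  have h6 : f = f' := congrFun h (2, 0)
  rw [h1, h2, h3, h4, h5, h6]

/-- The weight of the word with given parameters. -/
def tgWt (c : TgPar) : ℕ := (Cfsg.ternarySupport (tgGen' c)).card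

set_option maxRecDepth 100000 in
theorem tg_wt_cases : ∀ c : TgPar, tgWt c = 0 ∨ tgWt c = 6 ∨ tgWt c = 9 ∨ tgWt c = 12 := by
  decide +kernel

set_option maxRecDepth 100000 in
theorem tg_count6 : (Finset.univ.filter (fun c : TgPar => tgWt c = 6)).card = 264 := by
  decide +kernel

set_option maxRecDepth 100000 in
theorem tg_count9 : (Finset.univ.filter (fun c : TgPar => tgWt c = 9)).card = 440 := by
  decide +kernel

set_option maxRecDepth 100000 in
theorem tg_count12 : (Finset.univ.filter (fun c : TgPar => tgWt c = 12)).card = 24 := by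
  decide +kernel

theorem tg_pt : ∀ u v : ZMod 3,
    (if u - v ≠ 0 then 1 else 0) + (if u + v ≠ 0 then 1 else 0) +
        3 * (if u ≠ 0 ∧ v ≠ 0 then 1 else 0) =
      2 * ((if u ≠ 0 then 1 else 0) + (if v ≠ 0 then 1 else 0)) := by
  decide

/-- The weight identity over `ZMod 3`. -/
theorem tg_wt_identity {α : Type*} [Fintype α] [DecidableEq α] (x y : α → ZMod 3) :
    (Cfsg.ternarySupport (x - y)).card + (Cfsg.ternarySupport (x + y)).card +
        3 * (Cfsg.ternarySupport x ∩ Cfsg.ternarySupport y).card =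
      2 * ((Cfsg.ternarySupport x).card + (Cfsg.ternarySupport y).card) := by
  unfold Cfsg.ternarySupport
  rw [← Finset.filter_and]
  simp only [Finset.card_filter, Pi.sub_apply, Pi.add_apply]
  rw [Finset.mul_sum, ← Finset.sum_add_distrib, ← Finset.sum_add_distrib,
    ← Finset.sum_add_distrib, Finset.mul_sum]
  exact Finset.sum_congr rfl (fun p _ => tg_pt (x p) (y p))

theorem tg_supp_neg {α : Type*} [Fintype α] [DecidableEq α] (x : α → ZMod 3) :
    Cfsg.ternarySupport (-x) = Cfsg.ternarySupport x := by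
  unfold Cfsg.ternarySupport
  ext p
  simp

theorem tg_eq_zero_of_card {α : Type*} [Fintype α] [DecidableEq α] {x : α → ZMod 3}
    (h : (Cfsg.ternarySupport x).card = 0) : x = 0 := by
  unfold Cfsg.ternarySupport at h
  rw [Finset.card_eq_zero, Finset.filter_eq_empty_iff] at h
  funext p
  have := h (Finset.mem_univ p)
  simpa using this

theorem tg_wt_of_mem {x : Cfsg.ArrayPt → ZMod 3} (hx : x ∈ Cfsg.ternaryGolayCode) :
    x = 0 ∨ (Cfsg.ternarySupport x).card = 6 ∨ (Cfsg.ternarySupport x).card = 9 ∨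
      (Cfsg.ternarySupport x).card = 12 := by
  obtain ⟨c, rfl⟩ := (tg_mem_iff_gen' x).1 hx
  rcases tg_wt_cases c with h | h | h | h
  · exact Or.inl (tg_eq_zero_of_card h)
  · exact Or.inr (Or.inl h)
  · exact Or.inr (Or.inr (Or.inl h))
  · exact Or.inr (Or.inr (Or.inr h))

/-- Two weight-6 words whose supports share at least five points are equal or opposite. -/
theorem tg_pm {x y : Cfsg.ArrayPt → ZMod 3} (hx : x ∈ Cfsg.ternaryGolayCode)
    (hy : y ∈ Cfsg.ternaryGolayCode) (h6x : (Cfsg.ternarySupport x).card = 6)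
    (h6y : (Cfsg.ternarySupport y).card = 6)
    (h5 : 5 ≤ (Cfsg.ternarySupport x ∩ Cfsg.ternarySupport y).card) : y = x ∨ y = -x := by
  have hid := tg_wt_identity x y
  rcases tg_wt_of_mem (Submodule.sub_mem _ hx hy) with h1 | h1
  · exact Or.inl (sub_eq_zero.1 h1).symm
  rcases tg_wt_of_mem (Submodule.add_mem _ hx hy) with h2 | h2
  · exact Or.inr (eq_neg_of_add_eq_zero_right h2)
  exfalso
  omega

theorem tg_ncard_wt (w : ℕ) :
    {x : Cfsg.ArrayPt → ZMod 3 | x ∈ Cfsg.ternaryGolayCode ∧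
        (Cfsg.ternarySupport x).card = w}.ncard =
      (Finset.univ.filter (fun c : TgPar => tgWt c = w)).card := by
  have : {x : Cfsg.ArrayPt → ZMod 3 | x ∈ Cfsg.ternaryGolayCode ∧
        (Cfsg.ternarySupport x).card = w} =
      tgGen' '' ↑(Finset.univ.filter (fun c : TgPar => tgWt c = w)) := by
    ext x
    simp only [Set.mem_ofPred_eq, Set.mem_image, Finset.coe_filter, Finset.mem_univ, true_and]
    constructor
    · rintro ⟨hx, hw⟩
      obtain ⟨c, rfl⟩ := (tg_mem_iff_gen' x).1 hx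
      exact ⟨c, hw, rfl⟩
    · rintro ⟨c, hw, rfl⟩
      exact ⟨tgGen'_mem c, hw⟩
  rw [this, Set.ncard_image_of_injective _ tgGen'_injective, Set.ncard_coe_finset]

theorem tg_card : Nat.card ↥Cfsg.ternaryGolayCode = 729 := by
  have e : TgPar ≃ ↥Cfsg.ternaryGolayCode :=
    Equiv.ofBijective (fun c => ⟨tgGen' c, tgGen'_mem c⟩)
      ⟨fun a b h => tgGen'_injective (congrArg Subtype.val h), fun ⟨x, hx⟩ => by
        obtain ⟨c, rfl⟩ := (tg_mem_iff_gen' x).1 hx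
        exact ⟨c, rfl⟩⟩
  rw [← Nat.card_congr e, Nat.card_eq_fintype_card]
  simp [ZMod.card]

/-- The systematic basis. -/
def tgBasis : Fin 6 → Cfsg.ArrayPt → ZMod 3 :=
  ![tgGen 1 0 0 0 0 0, tgGen 0 1 0 0 0 0, tgGen 0 0 1 0 0 0, tgGen 0 0 0 1 0 0,
    tgGen 0 0 0 0 1 0, tgGen 0 0 0 0 0 1]

set_option maxRecDepth 100000 in
theorem tgGen_lin : ∀ a b c d e f : ZMod 3, tgGen a b c d e f =
    a • tgBasis 0 + b • tgBasis 1 + c • tgBasis 2 + d • tgBasis 3 + e • tgBasis 4 +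
      f • tgBasis 5 := by
  decide +kernel

set_option maxRecDepth 100000 in
theorem tgBasis_dot : ∀ j k : Fin 6, dotProduct (tgBasis j) (tgBasis k) = 0 := by
  decide +kernel

/-- The code is self-orthogonal. -/
theorem tg_dot {x y : Cfsg.ArrayPt → ZMod 3} (hx : x ∈ Cfsg.ternaryGolayCode)
    (hy : y ∈ Cfsg.ternaryGolayCode) : ∑ p, x p * y p = 0 := by
  obtain ⟨a, b, c, d, e, f, rfl⟩ := (tg_mem_iff_gen x).1 hx
  obtain ⟨a', b', c', d', e', f', rfl⟩ := (tg_mem_iff_gen y).1 hy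
  rw [tgGen_lin a b c d e f, tgGen_lin a' b' c' d' e' f']
  show dotProduct _ _ = 0
  simp only [add_dotProduct, dotProduct_add, smul_dotProduct, dotProduct_smul, tgBasis_dot,
    smul_zero, add_zero]

end Cfsg.Agent.Lib.Helper13
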