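import Cfsg.Agent.Lib.Helper13.Fi22SData
import Cfsg.Agent.Lib.Helper13.U6xData
set_option autoImplicit false
set_option maxRecDepth 100000

/-!
The eight generators of the presented group of order 9196830720 as words in the generators of
the presented Fischer group `Fi₂₂`, and the values of the relators there.
-/

open Cfsg.Agent.Lib.Helper13.CE

namespace Cfsg.Agent.Lib.Helper13.U6Fi

/-- the words `c, d, e, f, g, h, i` and `(abcdeh)^5`. -/
def iwL : List (List Cfsg.Spor.Fi22.Gen) := [[.c], [.d], [.e], [.f], [.g], [.h], [.i],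
  [.a, .b, .c, .d, .e, .h, .a, .b, .c, .d, .e, .h, .a, .b, .c, .d, .e, .h, .a, .b, .c, .d, .e, .h, .a, .b, .c, .d, .e, .h]]

/-- the word of a generator. -/
def iw (x : Fin 8) : List Cfsg.Spor.Fi22.Gen := iwL.getD x.val []

theorem hR1 : (U6x.relsW.take 38).all
    (fun W => relOK Fi22x14080.nets 14 (W.flatMap iw)) = true := by decide +kernel

theorem hR2 : (U6x.relsW.drop 38).all
    (fun W => relOK Fi22x14080.nets 14 (W.flatMap iw ++ [.a])) = true := by decide +kernel

theorem hAA : relOK Fi22x14080.nets 14 ([.a, .a] : List Cfsg.Spor.Fi22.Gen) = true := by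
  decide +kernel

theorem hAne : wpos Fi22x14080.nets ([.a] : List Cfsg.Spor.Fi22.Gen) 0 ≠ 0 := by decide +kernel

theorem hpc : wpos Fi22x3510.nets (Fi22S.conjW .c) 0 = 1 := by decide +kernel

theorem hpb : wpos Fi22x3510.nets (Fi22S.conjW .b) 0 = 695 := by decide +kernel

theorem hsubs : ∀ W ∈ Fi22x3510.subsW, W = [.a] ∨ ∃ l : Fin 8, W = iw l := by decide +kernel

theorem hiw : ∀ l : Fin 8, iw l ∈ Fi22x3510.subsW := by decide +kernel

theorem hsqm : ∀ x : Fin 8, [x, x] ∈ U6x.relsW.take 38 := by decide +kernel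

theorem hbraid : ∀ p ∈ ([(0, 1), (1, 2), (2, 3), (3, 4), (1, 5), (5, 6), (3, 7)] :
    List (Fin 8 × Fin 8)), cw p.1 p.2 3 ∈ U6x.relsW.take 38 := by decide +kernel

/-- a relator of odd length. -/
def W0 : List (Fin 8) := U6x.relsW.getD 36 []

theorem hW0 : W0 ∈ U6x.relsW.take 38 ∧ W0.length % 2 = 1 := by decide +kernel

/-- a relator with non-trivial value. -/
def W1 : List (Fin 8) := U6x.relsW.getD 38 []

theorem hW1 : W1 ∈ U6x.relsW.drop 38 := by decide +kernel

end Cfsg.Agent.Lib.Helper13.U6Fi
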