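import Cfsg.Agent.Lib.Helper13.U6xData
import Cfsg.Agent.Lib.Helper13.CosetPrim
set_option autoImplicit false
set_option maxRecDepth 100000

open Cfsg.Agent.Lib.Helper13.CE

namespace Cfsg.Agent.Lib.Helper13.U6Prim

def orbs : List (ℕ × ℕ × List ℕ × List (Fin 8) × List ℕ) := [(1, 315, [3, 4, 6, 2, 3, 5, 1, 2, 3, 4, 5, 6, 0, 1, 2, 3, 5, 6, 0, 1, 2, 3, 5, 1], [7], [0, 4, 5, 7, 0, 3, 4, 5, 6, 7, 0, 2, 3, 4, 5, 6, 7, 0, 1, 2, 3, 4, 5, 6, 7, 0, 1, 2, 3, 4, 5, 6, 7, 0, 1, 2, 3]),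
  (316, 2240, [2, 3, 4, 5, 6, 1, 2, 3, 4, 0, 1, 2, 3, 5, 1, 2, 5, 6, 0, 1, 2, 3, 4, 5, 1, 2, 3], [7, 6, 3, 7], [0, 3, 4, 5, 6, 7, 0, 2, 3, 4, 5, 6, 7, 0, 1, 2, 3, 4, 5, 6, 7, 0, 1, 2, 3, 4, 5, 6, 7, 0]),
  (2556, 3780, [1, 2, 3, 4, 5, 6, 0, 1, 2, 3, 4, 5, 6, 0, 1, 2, 3, 5, 6, 0, 1, 2, 3, 4, 5, 6, 1, 2, 3], [7, 6, 3, 4, 2, 3, 7], [0, 2, 3, 4, 5, 6, 7, 0, 1, 2, 3, 4, 5, 6, 7, 0, 1, 2, 3, 4, 5, 6, 7, 0, 1, 2, 3, 4])]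

theorem hcov : rngCover 6336 1 orbs = true := by decide +kernel
theorem hprim : orbs.all (primOK U6x.par.nets 6336 U6x.par.subs) = true := by decide +kernel

end Cfsg.Agent.Lib.Helper13.U6Prim
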