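import Cfsg.Agent.Lib.Helper13.U6SData
set_option autoImplicit false
set_option maxRecDepth 100000

open Cfsg.Agent.Lib.Helper13.CE

namespace Cfsg.Agent.Lib.Helper13.U6S

theorem hchainW : chainW U6x.nets 6336 [] levelsW = true := by decide +kernel
theorem hprodW : (levelsW.map (fun l => l.2.2.2)).prod = 9196830720 := by decide +kernel
theorem hwit : U6x.lettersW.all (fun x => witOK U6x.nets 13 11 x (wit x)) = true := by decide +kernel
theorem hncpt : wpos U6x.nets ([0, 1, 0, 1] : List (Fin 8)) 4 ≠ 4 := by decide +kernel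

end Cfsg.Agent.Lib.Helper13.U6S
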