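import Cfsg.Agent.Lib.Helper13.U6xP
import Cfsg.Agent.Lib.Helper13.U6SChk
import Cfsg.Agent.Lib.Helper13.U6Prim
set_option autoImplicit false
set_option maxRecDepth 100000

/-!
A group presented on eight involutions (seven of them generating a quotient of the Weyl group
of type `E₇` by its centre) of order 9196830720: its order, a faithful primitive action on 6336
points, and simplicity.
-/

open Cfsg.Agent.Lib.Helper13.CE Cfsg.Spor Cfsg.Agent.Lib.Helper13.U6x

namespace Cfsg.Agent.Lib.Helper13.U6O

/-- the presented group. -/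
abbrev P : Type := U6x.Grp

/-- the subgroup of index 6336. -/
def Hs : Subgroup P :=
  Subgroup.closure {g | ∃ W ∈ par.subs, g = PresentedGroup.mk
    (coxRelators U6x.edges ∪ {r | r ∈ U6x.extra}) ((W.map FreeGroup.of).prod)}

theorem main : ∃ (X : Act (Fin 8) P 6336 13) (f : P ⧸ Hs ≃ Fin 6336),
    X.nets = par.nets ∧
    (∀ W : List (Fin 8), X.ev W = PresentedGroup.mk
      (coxRelators U6x.edges ∪ {r | r ∈ U6x.extra}) ((W.map FreeGroup.of).prod)) ∧
    (∀ g, f (QuotientGroup.mk g) = X.φ g 0) :=
  U6x.main

instance finite : Finite P := U6x.card_le.1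

/-- the action on the 6336 cosets is faithful, and the order of the group. -/
theorem faithful : ∃ (X : Act (Fin 8) P 6336 13) (f : P ⧸ Hs ≃ Fin 6336),
    X.nets = par.nets ∧
    (∀ W : List (Fin 8), X.ev W = PresentedGroup.mk
      (coxRelators U6x.edges ∪ {r | r ∈ U6x.extra}) ((W.map FreeGroup.of).prod)) ∧
    (∀ g, f (QuotientGroup.mk g) = X.φ g 0) ∧ Function.Injective X.φ ∧
    Nat.card P = 9196830720 := by
  obtain ⟨X, f, hnets, hev, hf⟩ := main
  have h := X.injective_of_chainW U6S.levelsW (by rw [hnets]; exact U6S.hchainW)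
    9196830720 (le_trans U6x.card_le.2 (by norm_num)) (by rw [U6S.hprodW])
  exact ⟨X, f, hnets, hev, hf, h.1, h.2⟩

theorem card : Nat.card P = 9196830720 := by
  obtain ⟨X, f, -, -, -, -, h⟩ := faithful
  exact h

theorem simple : IsSimpleGroup P := by
  obtain ⟨X, f, hnets, hev, hf, hinj, hcard⟩ := faithful
  have hH : Hs = Subgroup.closure {g | ∃ W ∈ par.subs, g = X.ev W} := by
    unfold Hs
    congr 1
    ext g
    constructor
    · rintro ⟨W, hW, rfl⟩; exact ⟨W, hW, (hev W).symm⟩
    · rintro ⟨W, hW, rfl⟩; exact ⟨W, hW, hev W⟩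
  have hs : ∀ x, X.s x = PresentedGroup.of x := by
    intro x
    have := hev [x]
    simp only [Act.ev, List.map_cons, List.map_nil, List.prod_cons, List.prod_nil,
      mul_one] at this
    exact this
  have hgen : Subgroup.closure (Set.range X.s) = ⊤ := by
    have h1 : X.s = PresentedGroup.of
        (rels := coxRelators U6x.edges ∪ {r | r ∈ U6x.extra}) := funext hs
    rw [h1]
    exact PresentedGroup.closure_range_of _
  have hprim := X.isPreprimitive_of_orbs Hs f hf par.subs hH U6Prim.orbs U6Prim.hcov
    (by rw [hnets]; exact U6Prim.hprim)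
  refine X.isSimpleGroup_of_prime hinj hprim hgen 11 (by norm_num) ?_ (by rw [hcard]; norm_num)
    U6S.wit ?_
  · intro j hj
    rw [hcard] at hj
    have : j = 1451520 := by omega
    rw [this]; norm_num
  · intro x
    have h := List.all_eq_true.mp U6S.hwit x (U6x.hletters x)
    rw [hnets]; exact h

/-- two generators which do not commute. -/
theorem not_comm : (PresentedGroup.of 0 : P) * PresentedGroup.of 1 ≠
    PresentedGroup.of 1 * PresentedGroup.of 0 := by
  obtain ⟨X, f, hnets, hev, hf, hinj, hcard⟩ := faithful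
  intro h
  have hsq : ∀ x : Fin 8, (PresentedGroup.of x : P) * PresentedGroup.of x = 1 := by
    intro x
    have h1 := X.hs x
    have h2 : X.s x = PresentedGroup.of x := by
      have := hev [x]
      simp only [Act.ev, List.map_cons, List.map_nil, List.prod_cons, List.prod_nil,
        mul_one] at this
      exact this
    rw [h2] at h1
    exact h1
  have e : PresentedGroup.mk (coxRelators U6x.edges ∪ {r | r ∈ U6x.extra})
      ((([0, 1, 0, 1] : List (Fin 8)).map FreeGroup.of).prod) =
      (PresentedGroup.of 0 : P) * PresentedGroup.of 1 *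
        (PresentedGroup.of 0 * PresentedGroup.of 1) := by
    simp only [List.map_cons, List.map_nil, List.prod_cons, List.prod_nil, mul_one, map_mul,
      mul_assoc]
    rfl
  have h1 : X.ev [0, 1, 0, 1] = 1 := by
    rw [hev, e]
    calc (PresentedGroup.of 0 : P) * PresentedGroup.of 1 *
          (PresentedGroup.of 0 * PresentedGroup.of 1)
        = PresentedGroup.of 0 * PresentedGroup.of 1 *
          (PresentedGroup.of 1 * PresentedGroup.of 0) := by rw [← h]
      _ = PresentedGroup.of 0 * (PresentedGroup.of 1 * PresentedGroup.of 1) *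
          PresentedGroup.of 0 := by simp only [mul_assoc]
      _ = 1 := by rw [hsq 1, mul_one, hsq 0]
  exact X.φ_ev_ne_one [0, 1, 0, 1] ⟨4, by norm_num⟩ (by rw [hnets]; exact U6S.hncpt)
    (by rw [h1, map_one])

theorem center_eq_bot : Subgroup.center P = ⊥ := by
  haveI := simple
  rcases IsSimpleGroup.eq_bot_or_eq_top_of_normal (Subgroup.center P) inferInstance with h | h
  · exact h
  · exfalso
    have h0 : (PresentedGroup.of 0 : P) ∈ Subgroup.center P := by rw [h]; trivial
    exact not_comm ((Subgroup.mem_center_iff.mp h0 (PresentedGroup.of 1)).symm)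

end Cfsg.Agent.Lib.Helper13.U6O
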