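import Cfsg.Agent.Lib.Helper13.Fi22O
import Cfsg.Agent.Lib.Helper13.U6O
import Cfsg.Agent.Lib.Helper13.U6FiChk
import Cfsg.Agent.Lib.Helper13.CosetCover
import Cfsg.Agent.Lib.Helper13.CosetWords
import Cfsg.Prelude.Def_SporadicB
set_option autoImplicit false
set_option maxRecDepth 100000

/-!
In the presented `Fi₂₂`, the subgroup generated by `a, c, d, e, f, g, h, i` and `(abcdeh)^5` is a
non-split double cover of the presented group of order 9196830720.
-/

open Cfsg.Agent.Lib.Helper13.CE Cfsg.Spor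

namespace Cfsg.Agent.Lib.Helper13.U6Fi

/-- the value of a word in the presented group. -/
def val (W : List Fi22.Gen) : Fi22 := PresentedGroup.mk Fi22O.Rel ((W.map FreeGroup.of).prod)

theorem val_append (V W : List Fi22.Gen) : val (V ++ W) = val V * val W := by
  unfold val
  rw [List.map_append, List.prod_append, map_mul]

theorem val_nil : val [] = 1 := by
  unfold val
  simp

theorem val_mem (W : List Fi22.Gen) (hW : W ∈ Fi22x3510.par.subs) : val W ∈ Fi22O.HB :=
  Subgroup.subset_closure ⟨W, hW, rfl⟩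

theorem val_eq_one (W : List Fi22.Gen) (h : relOK Fi22x14080.nets 14 W = true) : val W = 1 := by
  obtain ⟨XA, fA, hnetsA, hevA, hfA, hinj, hcard⟩ := Fi22O.faithful
  have h1 := XA.ev_eq_one_of_inj hinj W (by rw [hnetsA]; exact h)
  rw [hevA] at h1
  exact h1

theorem a_sq : val [.a] * val [.a] = 1 := by
  rw [← val_append]
  exact val_eq_one _ hAA

theorem a_ne_one : val [.a] ≠ 1 := by
  obtain ⟨XA, fA, hnetsA, hevA, hfA, hinj, hcard⟩ := Fi22O.faithful
  intro h
  have h1 := XA.φ_ev_ne_one [.a] ⟨0, by norm_num⟩ (by rw [hnetsA]; exact hAne)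
  apply h1
  rw [hevA]
  have h2 : PresentedGroup.mk Fi22O.Rel ((([.a] : List Fi22.Gen).map FreeGroup.of).prod) = 1 := h
  rw [h2, map_one]

theorem a_comm : ∀ h ∈ Fi22O.HB, h * val [.a] = val [.a] * h := by
  obtain ⟨XA, fA, hnetsA, hevA, hfA, hinj, hcard⟩ := Fi22O.faithful
  apply Fi22O.comm_of_closure
  rintro g ⟨W, hW, rfl⟩
  have h1 := XA.comm_of_relOK hinj W Fi22S.Tw (by
    rw [hnetsA]; exact (List.all_eq_true.mp Fi22S.hcomm) W hW)
  rw [hevA, hevA] at h1
  exact h1

/-- the generators of the subgroup. -/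
def gH (x : Fin 8) : Fi22O.HB := ⟨val (iw x), val_mem _ (hiw x)⟩

/-- the central involution. -/
def tH : Fi22O.HB := ⟨val [.a], val_mem _ (by decide)⟩

theorem coe_prod (W : List (Fin 8)) :
    (((W.map gH).prod : Fi22O.HB) : Fi22) = val (W.flatMap iw) := by
  induction W with
  | nil => simp [val_nil]
  | cons x W ih =>
    rw [List.map_cons, List.prod_cons, Subgroup.coe_mul, ih, List.flatMap_cons, val_append]
    rfl

theorem prod_eq_one (W : List (Fin 8))
    (h : relOK Fi22x14080.nets 14 (W.flatMap iw) = true) : (W.map gH).prod = 1 :=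
  Subtype.ext (by rw [coe_prod]; exact val_eq_one _ h)

theorem prod_eq_t (W : List (Fin 8))
    (h : relOK Fi22x14080.nets 14 (W.flatMap iw ++ [.a]) = true) : (W.map gH).prod = tH := by
  apply Subtype.ext
  rw [coe_prod]
  have h1 := val_eq_one _ h
  rw [val_append] at h1
  show val (W.flatMap iw) = val [.a]
  calc val (W.flatMap iw) = val (W.flatMap iw) * (val [.a] * val [.a]) := by
        rw [a_sq, mul_one]
    _ = (val (W.flatMap iw) * val [.a]) * val [.a] := by rw [mul_assoc]
    _ = val [.a] := by rw [h1, one_mul]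

theorem prod_take (W : List (Fin 8)) (hW : W ∈ U6x.relsW.take 38) : (W.map gH).prod = 1 :=
  prod_eq_one W (List.all_eq_true.mp hR1 W hW)

theorem prod_drop (W : List (Fin 8)) (hW : W ∈ U6x.relsW.drop 38) : (W.map gH).prod = tH :=
  prod_eq_t W (List.all_eq_true.mp hR2 W hW)

theorem prod_rel (W : List (Fin 8)) (hW : W ∈ U6x.par.rels) :
    (W.map gH).prod = 1 ∨ (W.map gH).prod = tH := by
  have hW' : W ∈ U6x.relsW.take 38 ++ U6x.relsW.drop 38 := by
    rw [List.take_append_drop]; exact hW
  rcases List.mem_append.mp hW' with h | h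
  · exact Or.inl (prod_take W h)
  · exact Or.inr (prod_drop W h)

theorem tH_comm (h : Fi22O.HB) : h * tH = tH * h :=
  Subtype.ext (a_comm h.1 h.2)

theorem tH_sq : tH * tH = 1 := Subtype.ext a_sq

theorem tH_ne_one : tH ≠ 1 := fun h => a_ne_one (congrArg Subtype.val h)

theorem card_HB : Nat.card Fi22O.HB = 18393661440 := by
  obtain ⟨XB, fB, -, -, -⟩ := Fi22O.mainB
  have h1 := card_eq_of_index Fi22O.HB 3510 fB
  rw [Fi22O.card] at h1
  omega

/-- the subgroup generated by the central involution. -/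
def T : Subgroup Fi22O.HB := Subgroup.zpowers tH

theorem T_le_center : T ≤ Subgroup.center Fi22O.HB := by
  unfold T
  rw [Subgroup.zpowers_le, Subgroup.mem_center_iff]
  exact tH_comm

instance T_normal : T.Normal := ⟨fun n hn g => by
  have := Subgroup.mem_center_iff.mp (T_le_center hn) g
  rw [this, mul_inv_cancel_right]
  exact hn⟩

theorem card_T : Nat.card T = 2 := by
  unfold T
  rw [Nat.card_zpowers]
  exact orderOf_eq_prime (p := 2) (by rw [pow_two]; exact tH_sq) tH_ne_one

theorem gH_sq (x : Fin 8) : gH x * gH x = 1 := by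
  have h := prod_take [x, x] (hsqm x)
  simpa using h

theorem braid (p : Fin 8 × Fin 8)
    (hp : p ∈ ([(0, 1), (1, 2), (2, 3), (3, 4), (1, 5), (5, 6), (3, 7)] :
      List (Fin 8 × Fin 8))) : (gH p.1 * gH p.2) ^ 3 = 1 := by
  have h := prod_take _ (hbraid p hp)
  rw [prod_cw] at h
  exact h

theorem tH_eq : tH = (W1.map gH).prod := (prod_drop W1 hW1).symm

theorem gH_gen : Subgroup.closure (Set.range gH) = ⊤ := by
  rw [eq_top_iff]
  rintro ⟨g, hg⟩ -
  have key : ∀ g (hg : g ∈ Subgroup.closure {g | ∃ W ∈ Fi22x3510.par.subs,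
      g = PresentedGroup.mk Fi22O.Rel ((W.map FreeGroup.of).prod)}),
      (⟨g, hg⟩ : Fi22O.HB) ∈ Subgroup.closure (Set.range gH) := by
    intro g hg
    induction hg using Subgroup.closure_induction with
    | mem x hx =>
      obtain ⟨W, hW, rfl⟩ := hx
      rcases hsubs W hW with rfl | ⟨l, rfl⟩
      · have h1 : (⟨PresentedGroup.mk Fi22O.Rel ((([.a] : List Fi22.Gen).map FreeGroup.of).prod),
            Subgroup.subset_closure ⟨[.a], hW, rfl⟩⟩ : Fi22O.HB) = (W1.map gH).prod := tH_eq
        rw [h1]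
        apply Subgroup.list_prod_mem
        intro y hy
        obtain ⟨l, _, rfl⟩ := List.mem_map.mp hy
        exact Subgroup.subset_closure ⟨l, rfl⟩
      · exact Subgroup.subset_closure ⟨l, rfl⟩
    | one => exact Subgroup.one_mem _
    | mul x y hx hy ihx ihy => exact Subgroup.mul_mem _ ihx ihy
    | inv x hx ih => exact Subgroup.inv_mem _ ih
  exact key g hg

/-- the homomorphism from the presented group onto the quotient. -/
def psi : U6O.P →* Fi22O.HB ⧸ T :=
  PresentedGroup.toGroup (lift_eq_one_of_relsGen U6x.edges U6x.extra U6x.par.letters U6x.extraW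
    U6x.hletters U6x.hextra (fun x => (QuotientGroup.mk (gH x) : Fi22O.HB ⧸ T)) (by
      intro W hW
      have hW' : W ∈ U6x.par.rels := by rw [U6x.hrels]; exact hW
      have h1 : (W.map (fun x => (QuotientGroup.mk (gH x) : Fi22O.HB ⧸ T))).prod =
          QuotientGroup.mk' T ((W.map gH).prod) := by
        rw [map_list_prod, List.map_map]
        rfl
      rw [h1, QuotientGroup.mk'_apply, QuotientGroup.eq_one_iff]
      rcases prod_rel W hW' with h | h
      · rw [h]; exact T.one_mem
      · rw [h]; exact Subgroup.mem_zpowers tH))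

theorem psi_of (x : Fin 8) : psi (PresentedGroup.of x) = QuotientGroup.mk (gH x) :=
  PresentedGroup.toGroup.of _

theorem psi_surj : Function.Surjective psi := by
  rw [← MonoidHom.range_eq_top]
  have h1 : (psi.range).comap (QuotientGroup.mk' T) = ⊤ := by
    rw [eq_top_iff, ← gH_gen, Subgroup.closure_le]
    rintro _ ⟨x, rfl⟩
    show QuotientGroup.mk' T (gH x) ∈ psi.range
    exact ⟨PresentedGroup.of x, psi_of x⟩
  rw [eq_top_iff]
  intro q _
  obtain ⟨h, rfl⟩ := QuotientGroup.mk_surjective q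
  have h2 : h ∈ (psi.range).comap (QuotientGroup.mk' T) := by rw [h1]; trivial
  exact h2

theorem card_quot : Nat.card (Fi22O.HB ⧸ T) = 9196830720 := by
  have h1 := Subgroup.card_eq_card_quotient_mul_card_subgroup T
  rw [card_HB, card_T] at h1
  omega

/-- the quotient is the presented group. -/
noncomputable def equiv : Fi22O.HB ⧸ T ≃* U6O.P :=
  haveI : Finite (Fi22O.HB ⧸ T) := Nat.finite_of_card_ne_zero (by rw [card_quot]; norm_num)
  (MulEquiv.ofBijective psi (Function.Surjective.bijective_of_nat_card_le psi_surj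
    (by rw [card_quot, U6O.card]))).symm

theorem center_eq : Subgroup.center Fi22O.HB = T :=
  center_eq_of_quotient T T_le_center equiv U6O.center_eq_bot

theorem hconjH : ∀ x, ∃ v : Fi22O.HB, gH x = v * gH 0 * v⁻¹ := by
  have step : ∀ p ∈ ([(0, 1), (1, 2), (2, 3), (3, 4), (1, 5), (5, 6), (3, 7)] :
      List (Fin 8 × Fin 8)),
      (∃ v, gH p.1 = v * gH 0 * v⁻¹) → ∃ v, gH p.2 = v * gH 0 * v⁻¹ := by
    intro p hp ⟨v, hv⟩
    refine ⟨gH p.1 * gH p.2 * v, ?_⟩
    have h1 := conj_of_braid (gH p.1) (gH p.2) (gH_sq p.1) (gH_sq p.2) (braid p hp)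
    calc gH p.2 = gH p.1 * gH p.2 * gH p.1 * (gH p.1 * gH p.2)⁻¹ := h1
      _ = gH p.1 * gH p.2 * (v * gH 0 * v⁻¹) * (gH p.1 * gH p.2)⁻¹ := by rw [← hv]
      _ = (gH p.1 * gH p.2 * v) * gH 0 * (gH p.1 * gH p.2 * v)⁻¹ := by group
  have c0 : ∃ v, gH 0 = v * gH 0 * v⁻¹ := ⟨1, by group⟩
  have c1 := step (0, 1) (by decide) c0
  have c2 := step (1, 2) (by decide) c1
  have c3 := step (2, 3) (by decide) c2
  have c4 := step (3, 4) (by decide) c3
  have c5 := step (1, 5) (by decide) c1
  have c6 := step (5, 6) (by decide) c5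
  have c7 := step (3, 7) (by decide) c3
  intro x
  fin_cases x <;> assumption

theorem perfect : commutator Fi22O.HB = ⊤ :=
  commutator_eq_top_of_conj gH gH_sq gH_gen (gH 0) hconjH W0 (prod_take W0 hW0.1) hW0.2

/-- the subgroup generated by `a, c, d, e, f, g, h, i` and `(abcdeh)^5` is a non-split double
cover of the presented group of order 9196830720. -/
theorem cover : Cfsg.IsNonsplitDoubleCover Fi22O.HB U6O.P := by
  refine ⟨?_, ?_, ?_⟩
  · rw [center_eq]; exact card_T
  · exact ⟨(QuotientGroup.quotientMulEquivOfEq center_eq).trans equiv⟩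
  · intro L
    apply no_complement_of_perfect _ le_rfl perfect
    rw [center_eq]
    intro h
    have h1 := card_T
    rw [h, Subgroup.card_bot] at h1
    omega

/-- a non-split double cover of an isomorphic group. -/
theorem nonsplit_right {H K K' : Type*} [Group H] [Group K] [Group K'] (e : K ≃* K')
    (h : Cfsg.IsNonsplitDoubleCover H K) : Cfsg.IsNonsplitDoubleCover H K' := by
  obtain ⟨h1, ⟨q⟩, h3⟩ := h
  exact ⟨h1, ⟨q.trans e⟩, h3⟩

end Cfsg.Agent.Lib.Helper13.U6Fi
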