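import Cfsg.Agent.Lib.Helper13.U6xData
import Cfsg.Agent.Lib.Helper13.CosetBase
set_option autoImplicit false
set_option maxRecDepth 100000

open Cfsg.Agent.Lib.Helper13.CE

namespace Cfsg.Agent.Lib.Helper13.U6S

def levelsW : List (List (List (Fin 8)) × ℕ × List ℕ × ℕ) := [([[0], [1], [2], [3], [4], [5], [6], [7]], 0, [7, 3, 4, 6, 7, 2, 3, 4, 5, 6, 7, 1, 2, 3, 4, 5, 6, 7, 0, 1, 2, 3, 4, 5, 6, 7, 0, 1, 2, 3, 4, 5, 6, 7, 0, 1, 2], 6336),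
  ([[0], [1], [2], [3], [4], [5], [6]], 2556, [1, 2, 3, 4, 5, 6, 0, 1, 2, 3, 4, 5, 6, 0, 1, 2, 3, 5, 6, 0, 1, 2, 3, 4, 5, 6, 1, 2, 3], 3780),
  ([[0], [2], [4], [1, 0, 2, 6, 1], [3, 2, 4, 3, 5, 6, 5], [5, 1, 0, 6, 5, 1, 2, 0, 1, 5, 6, 0, 1, 5], [3, 2, 1, 0, 6, 5, 1, 0, 1, 5, 4, 3, 2, 1], [1, 0, 3, 2, 1, 4, 3, 2, 4, 3, 2, 1, 5, 6]], 326, [0, 1, 2, 3, 4, 5, 6, 7, 3, 4, 5], 384)]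
def witL : List (List (List (Fin 8))) := [[[1, 2, 6, 7, 0, 1, 4, 2, 0, 3, 5]],
  [[2, 1, 4, 5, 6, 3, 1, 7, 0]],
  [[5, 7, 0, 3, 1, 6, 2, 4, 3, 4]],
  [[3, 4, 1, 3, 0, 5, 7, 3, 2, 6]],
  [[5, 7, 0, 3, 1, 6, 2, 4, 3, 4]],
  [[5, 4, 0, 7, 3, 1, 2, 0, 6, 5, 6, 1]],
  [[7, 3, 5, 6, 0, 4, 7, 5, 3, 1, 2, 6, 1]],
  [[2, 1, 4, 5, 6, 3, 1, 7, 0], [2, 1, 4, 5, 6, 3, 1, 7, 0]]]
def wit (x : Fin 8) : List (List (Fin 8)) := witL.getD x.val []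

end Cfsg.Agent.Lib.Helper13.U6S
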