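import Cfsg.Agent.Lib.Helper13.F4VecN
import Cfsg.Agent.Lib.Helper13.U6O
import Cfsg.Agent.Lib.Helper13.CosetWords
import Cfsg.Agent.S0280

set_option autoImplicit false
set_option maxRecDepth 100000

/-!
The presented group of order 9196830720 is isomorphic to the projective special unitary group of
dimension six over a field with four elements: eight unitary transvections, given by tables,
satisfy the relators up to scalars.
-/

open Cfsg.Agent.Lib.Helper13.CE Cfsg.Spor Cfsg.Agent.Lib.Helper13.F4N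
open Cfsg.Agent.Lib.Helper13.F4 (dec2 decN cd cd_lt dec2_vals decN_eq)

namespace Cfsg.Agent.Lib.Helper13.U6SU

def tabL : List (List ℕ) := [[0, 2828, 3332, 1544, 0, 3330, 1539, 2817, 0, 16, 32, 48, 0, 64, 128, 192, 0, 3078, 1035, 2061, 0, 523, 781, 262],
  [0, 8, 12, 4, 0, 3, 1, 2, 0, 16, 32, 48, 0, 64, 128, 192, 0, 256, 512, 768, 0, 1024, 2048, 3072],
  [0, 1644, 2996, 3544, 0, 2994, 3539, 1633, 0, 3531, 1613, 2950, 0, 1581, 2870, 3355, 0, 3291, 1133, 2230, 0, 621, 950, 475],
  [0, 1, 2, 3, 0, 4, 8, 12, 0, 3392, 1664, 3008, 0, 3344, 1568, 2864, 0, 3152, 1184, 2288, 0, 672, 1008, 336],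
  [0, 1, 2, 3, 0, 4, 8, 12, 0, 3008, 3392, 1664, 0, 3360, 1584, 2832, 0, 3168, 1200, 2256, 0, 688, 976, 352],
  [0, 12, 4, 8, 0, 2, 3, 1, 0, 16, 32, 48, 0, 64, 128, 192, 0, 256, 512, 768, 0, 1024, 2048, 3072],
  [0, 3144, 1164, 2244, 0, 2243, 3137, 1154, 0, 16, 32, 48, 0, 3081, 1038, 2055, 0, 256, 512, 768, 0, 142, 199, 73],
  [0, 1, 2, 3, 0, 4, 8, 12, 0, 192, 64, 128, 0, 32, 48, 16, 0, 256, 512, 768, 0, 1024, 2048, 3072]]

def tabs (l : Fin 8) : List ℕ := tabL.getD l.val []

theorem htab : ∀ l, tabOK 6 (tabs l) = true := by decide +kernel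

theorem hherm : ∀ l, hermOK 6 (tabs l) = true := by decide +kernel

theorem hsq : ∀ l, scalOK 6 tabs [l, l] 1 = true := by decide +kernel

theorem hrel : U6x.par.rels.all (fun W => scalOK 6 tabs W 1 || scalOK 6 tabs W 2) = true := by
  decide +kernel

theorem hcd3 : scalOK 6 tabs (cw 0 1 3) 1 = true := by decide +kernel

theorem hcdA : cd ((tabs 0).getD (4 * 4 + 1) 0) 1 = 1 := by decide +kernel

theorem hcdB : cd ((tabs 1).getD (4 * 4 + 1) 0) 1 = 0 := by decide +kernel

section

variable {F : Type} [Field F] [CharP F 2] (ω : F) (hω : ω ^ 2 + ω + 1 = 0)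

/-- the matrices. -/
def mat (l : Fin 8) : Matrix (Fin 6) (Fin 6) F := matOf 6 ω (tabs l)

include hω

theorem prod_scal (W : List (Fin 8)) (k : ℕ) (hk : k < 4) (h : scalOK 6 tabs W k = true) :
    (W.map (mat ω)).prod = dec2 ω k • (1 : Matrix (Fin 6) (Fin 6) F) :=
  prod_eq_smul_one 6 ω hω tabs htab W k hk h

theorem mat_sq (l : Fin 8) : mat ω l * mat ω l = 1 := by
  have h := prod_scal ω hω [l, l] 1 (by norm_num) (hsq l)
  rw [(dec2_vals ω).2.1, one_smul] at h
  simpa using h

theorem mat_not_comm : mat ω 0 * mat ω 1 ≠ mat ω 1 * mat ω 0 := by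
  intro hc
  have hA := mat_sq ω hω 0
  have hB := mat_sq ω hω 1
  have h3' := prod_scal ω hω (cw 0 1 3) 1 (by norm_num) hcd3
  rw [(dec2_vals ω).2.1, one_smul, prod_cw] at h3'
  have h2 : (mat ω 0 * mat ω 1) ^ 2 = 1 := by
    rw [pow_two]
    calc mat ω 0 * mat ω 1 * (mat ω 0 * mat ω 1)
        = mat ω 0 * (mat ω 1 * mat ω 0) * mat ω 1 := by simp only [mul_assoc]
      _ = mat ω 0 * (mat ω 0 * mat ω 1) * mat ω 1 := by rw [hc]
      _ = (mat ω 0 * mat ω 0) * (mat ω 1 * mat ω 1) := by simp only [mul_assoc]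
      _ = 1 := by rw [hA, hB, mul_one]
  have h3 : mat ω 0 * mat ω 1 = 1 := by
    have : (mat ω 0 * mat ω 1) ^ 3 = (mat ω 0 * mat ω 1) ^ 2 * (mat ω 0 * mat ω 1) := by
      rw [← pow_succ]
    rw [this, h2, one_mul] at h3'
    exact h3'
  have h4 : mat ω 0 = mat ω 1 := by
    calc mat ω 0 = mat ω 0 * (mat ω 1 * mat ω 1) := by rw [hB, mul_one]
      _ = (mat ω 0 * mat ω 1) * mat ω 1 := by rw [mul_assoc]
      _ = mat ω 1 := by rw [h3, one_mul]
  have h5 := congrFun (congrFun h4 1) 4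
  unfold mat matOf at h5
  rw [decN_eq, decN_eq] at h5
  have e1 : cd ((tabs 0).getD (4 * ((4 : Fin 6) : ℕ) + 1) 0) ((1 : Fin 6) : ℕ) = 1 := hcdA
  have e2 : cd ((tabs 1).getD (4 * ((4 : Fin 6) : ℕ) + 1) 0) ((1 : Fin 6) : ℕ) = 0 := hcdB
  rw [e1, e2, (dec2_vals ω).1, (dec2_vals ω).2.1] at h5
  exact one_ne_zero h5

/-- the matrices as elements of the special linear group. -/
def sl (l : Fin 8) : Matrix.SpecialLinearGroup (Fin 6) F :=
  ⟨mat ω l, det_eq_one_of_sq 6 _ (mat_sq ω hω l)⟩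

theorem slToMat_sl (l : Fin 8) : Cfsg.slToMat 6 F (sl ω hω l) = mat ω l := rfl

/-- the matrices as elements of the special unitary group. -/
def su (l : Fin 8) : Cfsg.SU 6 F 2 :=
  ⟨sl ω hω l, by
    intro u v
    rw [slToMat_sl]
    exact herm_pres 6 (mat ω l) (mat_sq ω hω l) (matOf_herm 6 ω hω _ (hherm l)) u v⟩

end

section

variable (F : Type) [Field F]

/-- the matrix of an element of the special unitary group. -/
def toM : Cfsg.SU 6 F 2 →* Matrix (Fin 6) (Fin 6) F :=
  (Cfsg.slToMat 6 F).comp (Subgroup.subtype _)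

theorem toM_inj : Function.Injective (toM F) := by
  intro a b h
  apply Subtype.ext
  apply Subtype.ext
  exact h

theorem scalar_mem_center (g : Cfsg.SU 6 F 2) (c : F)
    (h : toM F g = c • (1 : Matrix (Fin 6) (Fin 6) F)) :
    g ∈ Subgroup.center (Cfsg.SU 6 F 2) := by
  rw [Subgroup.mem_center_iff]
  intro x
  apply toM_inj F
  rw [map_mul, map_mul, h]
  simp

end

section main

variable {F : Type} [Field F] [CharP F 2] (ω : F) (hω : ω ^ 2 + ω + 1 = 0)

include hω

theorem toM_prod (W : List (Fin 8)) :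
    toM F ((W.map (su ω hω)).prod) = (W.map (mat ω)).prod := by
  rw [map_list_prod, List.map_map]
  rfl

theorem rel_central (W : List (Fin 8)) (hW : W ∈ U6x.par.rels) :
    (W.map (su ω hω)).prod ∈ Subgroup.center (Cfsg.SU 6 F 2) := by
  have h := List.all_eq_true.mp hrel W hW
  rcases (Bool.or_eq_true _ _).mp h with h1 | h2
  · exact scalar_mem_center F _ (dec2 ω 1) (by
      rw [toM_prod, prod_scal ω hω W 1 (by norm_num) h1])
  · exact scalar_mem_center F _ (dec2 ω 2) (by
      rw [toM_prod, prod_scal ω hω W 2 (by norm_num) h2])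

/-- the images of the generators in the projective special unitary group. -/
def sq (l : Fin 8) : Cfsg.PSU 6 F 2 := QuotientGroup.mk (su ω hω l)

theorem sq_rel : ∀ W ∈ relsGen U6x.edges U6x.par.letters U6x.extraW,
    (W.map (sq ω hω)).prod = 1 := by
  intro W hW
  have hW' : W ∈ U6x.par.rels := by rw [U6x.hrels]; exact hW
  have h1 : (W.map (sq ω hω)).prod =
      QuotientGroup.mk' (Subgroup.center (Cfsg.SU 6 F 2)) ((W.map (su ω hω)).prod) := by
    rw [map_list_prod, List.map_map]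
    rfl
  rw [h1, QuotientGroup.mk'_apply, QuotientGroup.eq_one_iff]
  exact rel_central ω hω W hW'

/-- the homomorphism from the presented group. -/
def theta : U6O.P →* Cfsg.PSU 6 F 2 :=
  PresentedGroup.toGroup (lift_eq_one_of_relsGen U6x.edges U6x.extra U6x.par.letters U6x.extraW
    U6x.hletters U6x.hextra (sq ω hω) (sq_rel ω hω))

theorem theta_of (l : Fin 8) : theta ω hω (PresentedGroup.of l) = sq ω hω l :=
  PresentedGroup.toGroup.of _

theorem theta_injective : Function.Injective (theta ω hω) := by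
  rw [← MonoidHom.ker_eq_bot_iff]
  rcases U6O.simple.eq_bot_or_eq_top_of_normal (theta ω hω).ker inferInstance with h | h
  · exact h
  · exfalso
    have h0 : (PresentedGroup.of 0 : U6O.P) ∈ (theta ω hω).ker := by rw [h]; trivial
    rw [MonoidHom.mem_ker, theta_of] at h0
    have h1 : su ω hω 0 ∈ Subgroup.center (Cfsg.SU 6 F 2) :=
      (QuotientGroup.eq_one_iff _).mp h0
    have hc := Subgroup.mem_center_iff.mp h1 (su ω hω 1)
    have hm := congrArg (toM F) hc
    rw [map_mul, map_mul] at hm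
    exact mat_not_comm ω hω hm.symm

end main

theorem card_PSU (F : Type) [Field F] [Fintype F] (hF : Fintype.card F = 4) :
    Nat.card (Cfsg.PSU 6 F 2) = 9196830720 := by
  have h := Cfsg.Agent.S0280.result (F := F) (q := 2) (by rw [hF]; norm_num) 6 (by norm_num)
  have h1 : Nat.gcd 6 (2 + 1) = 3 := by norm_num
  have h2 : ∏ i ∈ Finset.range 6, (if Even i then 2 ^ (i + 1) + 1 else 2 ^ (i + 1) - 1) =
      2525985 := by decide
  rw [h1, h2] at h
  norm_num at h
  omega

/-- the presented group is isomorphic to the projective special unitary group. -/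
noncomputable def equivPSU {F : Type} [Field F] [CharP F 2] [Fintype F]
    (hF : Fintype.card F = 4) (ω : F) (hω : ω ^ 2 + ω + 1 = 0) :
    U6O.P ≃* Cfsg.PSU 6 F 2 :=
  haveI : Finite (Cfsg.PSU 6 F 2) :=
    Nat.finite_of_card_ne_zero (by rw [card_PSU F hF]; norm_num)
  MulEquiv.ofBijective (theta ω hω)
    ((theta_injective ω hω).bijective_of_nat_card_le (by rw [card_PSU F hF, U6O.card]))

end Cfsg.Agent.Lib.Helper13.U6SU
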