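import Cfsg.Agent.Lib.Helper13.U6xData
set_option autoImplicit false
set_option maxRecDepth 100000

open Cfsg.Agent.Lib.Helper13.CE

namespace Cfsg.Agent.Lib.Helper13.U6x

theorem hC3 : chunkOK par Zs1 Ls3 143 sA3 Zs1 Ls4 261 [] [] = true := by decide +kernel

end Cfsg.Agent.Lib.Helper13.U6x
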