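import Cfsg.Agent.Lib.Helper13.U6xData
set_option autoImplicit false
set_option maxRecDepth 100000

open Cfsg.Agent.Lib.Helper13.CE

namespace Cfsg.Agent.Lib.Helper13.U6x

theorem hC6 : chunkOK par Zs1 Ls6 571 sA6 Zs1 Ls6 571 (((parB.AR.flatten.drop 0).take 145).reverse) [] = true := by decide +kernel

end Cfsg.Agent.Lib.Helper13.U6x
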