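import Cfsg.Agent.Lib.Helper13.U6xA0
import Cfsg.Agent.Lib.Helper13.U6xA1
import Cfsg.Agent.Lib.Helper13.U6xA2
import Cfsg.Agent.Lib.Helper13.U6xA3
import Cfsg.Agent.Lib.Helper13.U6xA4
import Cfsg.Agent.Lib.Helper13.U6xA5
import Cfsg.Agent.Lib.Helper13.U6xA6
import Cfsg.Agent.Lib.Helper13.U6xA7
import Cfsg.Agent.Lib.Helper13.U6xA8
import Cfsg.Agent.Lib.Helper13.U6xA9
set_option autoImplicit false
set_option maxRecDepth 100000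

open Cfsg.Agent.Lib.Helper13.CE

namespace Cfsg.Agent.Lib.Helper13.U6x

theorem hT : treeOK par 8 tree Zs0 = true := by decide +kernel
theorem hcov : coverOK par ⟨Zs1, Ls6, 571, parB.AR.flatten.reverse, parB.AS.reverse⟩ = true := by decide +kernel
theorem hrun : runA par ⟨Zs0, List.replicate 8 0, 1, [], []⟩ stepsA = some ⟨Zs1, Ls6, 571, parB.AR.flatten.reverse, parB.AS.reverse⟩ :=
  (runA_chunk_cons2 par Zs0 (List.replicate 8 0) 1 sA0 _ Zs1 Ls1 11 _ _ _ hC0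
    (runA_chunk_cons2 par Zs1 Ls1 11 sA1 _ Zs1 Ls2 53 _ _ _ hC1
    (runA_chunk_cons2 par Zs1 Ls2 53 sA2 _ Zs1 Ls3 143 _ _ _ hC2
    (runA_chunk_cons2 par Zs1 Ls3 143 sA3 _ Zs1 Ls4 261 _ _ _ hC3
    (runA_chunk_cons2 par Zs1 Ls4 261 sA4 _ Zs1 Ls5 438 _ _ _ hC4
    (runA_chunk_cons2 par Zs1 Ls5 438 sA5 _ Zs1 Ls6 571 _ _ _ hC5
    (runA_chunk_cons2 par Zs1 Ls6 571 sA6 _ Zs1 Ls6 571 _ _ _ hC6
    (runA_chunk_cons2 par Zs1 Ls6 571 sA7 _ Zs1 Ls6 571 _ _ _ hC7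
    (runA_chunk_cons2 par Zs1 Ls6 571 sA8 _ Zs1 Ls6 571 _ _ _ hC8
    (runA_of_chunkOK par Zs1 Ls6 571 sA9 Zs1 Ls6 571 _ _ hC9)))))))))).trans
    (some_StA_eq _ _ _ _ _ _ rfl rfl rfl (by decide +kernel) (by decide +kernel))
theorem hA : checkA par 8 tree stepsA parB.AR.flatten parB.AS 571 = true :=
  checkA_of_parts par 8 tree stepsA _ _ 571 Zs0 Zs1 Ls6 hT hrun hcov

end Cfsg.Agent.Lib.Helper13.U6x
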