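import Cfsg.Agent.Lib.Helper13.U6xA
import Cfsg.Agent.Lib.Helper13.U6xB
import Cfsg.Agent.Lib.Helper13.CosetE7
set_option autoImplicit false
set_option maxRecDepth 100000

/-!
A presentation of a group of order at most `6336 * 1451520` on eight involutions: the Coxeter
relations of a graph with eight edges, the ninth power of a Coxeter element of an `E₇`
sub-diagram, and three more relators.
-/

open Cfsg.Agent.Lib.Helper13.CE Cfsg.Spor

namespace Cfsg.Agent.Lib.Helper13.U6x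

def edges : List (Fin 8 × ℕ × Fin 8) :=
  [(0, 3, 1), (1, 3, 2), (1, 3, 5), (2, 3, 3), (3, 3, 4), (3, 3, 7), (5, 3, 6), (6, 3, 7)]

def extra : List (FreeGroup (Fin 8)) := [
  (FreeGroup.of 6 * FreeGroup.of 5 * FreeGroup.of 1 * FreeGroup.of 2 * FreeGroup.of 3 * FreeGroup.of 4 * FreeGroup.of 0) ^ 9,
  FreeGroup.of 7 * FreeGroup.of 3 * FreeGroup.of 6 * FreeGroup.of 5 * FreeGroup.of 1 * FreeGroup.of 2 * FreeGroup.of 7 * FreeGroup.of 3 * FreeGroup.of 6 * FreeGroup.of 7 * FreeGroup.of 5 * FreeGroup.of 6 * FreeGroup.of 1 * FreeGroup.of 2 * FreeGroup.of 3 * FreeGroup.of 7 * FreeGroup.of 5 * FreeGroup.of 6 * FreeGroup.of 1 * FreeGroup.of 5 * FreeGroup.of 2 * FreeGroup.of 3 * FreeGroup.of 1 * FreeGroup.of 2,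
  FreeGroup.of 7 * FreeGroup.of 3 * FreeGroup.of 2 * FreeGroup.of 1 * FreeGroup.of 5 * FreeGroup.of 0 * FreeGroup.of 1 * FreeGroup.of 2 * FreeGroup.of 3 * FreeGroup.of 7 * FreeGroup.of 0 * FreeGroup.of 1 * FreeGroup.of 5 * FreeGroup.of 2 * FreeGroup.of 3 * FreeGroup.of 1 * FreeGroup.of 2 * FreeGroup.of 0 * FreeGroup.of 1 * FreeGroup.of 5 * FreeGroup.of 0 * FreeGroup.of 1 * FreeGroup.of 2 * FreeGroup.of 3 * FreeGroup.of 0 * FreeGroup.of 1 * FreeGroup.of 2 * FreeGroup.of 0 * FreeGroup.of 1 * FreeGroup.of 0,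
  FreeGroup.of 7 * FreeGroup.of 3 * FreeGroup.of 2 * FreeGroup.of 1 * FreeGroup.of 0 * FreeGroup.of 4 * FreeGroup.of 3 * FreeGroup.of 2 * FreeGroup.of 7 * FreeGroup.of 3 * FreeGroup.of 4 * FreeGroup.of 1 * FreeGroup.of 2 * FreeGroup.of 3 * FreeGroup.of 7 * FreeGroup.of 5 * FreeGroup.of 1 * FreeGroup.of 2 * FreeGroup.of 0 * FreeGroup.of 1 * FreeGroup.of 5 * FreeGroup.of 3 * FreeGroup.of 4 * FreeGroup.of 2 * FreeGroup.of 3 * FreeGroup.of 1 * FreeGroup.of 2 * FreeGroup.of 0 * FreeGroup.of 1 * FreeGroup.of 5 ]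

theorem hnodes : ∀ x : Fin 8, x ∈ coxNodes edges := by decide
theorem hletters : ∀ x : Fin 8, x ∈ par.letters := by decide
theorem hidx : Function.Injective par.idx := fun _ _ h => Fin.ext h

theorem hextra : List.Forall₂ (fun r W => ∀ (K : Type) [Group K] (s : Fin 8 → K),
    (∀ x, s x * s x = 1) → FreeGroup.lift s r = (W.map s).prod) extra extraW := by
  refine List.Forall₂.cons ?_ (List.Forall₂.cons ?_ (List.Forall₂.cons ?_ (List.Forall₂.cons ?_ (List.Forall₂.nil))))
  all_goals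
    intro K _ s hs
    simp only [map_mul, FreeGroup.lift_apply_of, List.map_cons, List.map_nil,
      List.prod_cons, List.prod_nil, pow_succ, pow_zero, one_mul, mul_one, mul_assoc]

theorem hrels : par.rels = relsGen edges par.letters extraW := by decide +kernel

/-- the presented group. -/
abbrev Grp : Type := PresentedGroup (coxRelators edges ∪ {r | r ∈ extra})

theorem main : ∃ (X : Act (Fin 8) Grp 6336 13)
    (f : Grp ⧸ Subgroup.closure {g | ∃ W ∈ par.subs, g = PresentedGroup.mk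
      (coxRelators edges ∪ {r | r ∈ extra}) ((W.map FreeGroup.of).prod)} ≃ Fin 6336),
    X.nets = par.nets ∧
    (∀ W : List (Fin 8), X.ev W = PresentedGroup.mk (coxRelators edges ∪ {r | r ∈ extra})
      ((W.map FreeGroup.of).prod)) ∧
    (∀ g, f (QuotientGroup.mk g) = X.φ g 0) :=
  cox_main2 edges extra 6336 13 par extraW hnodes hletters hidx hextra hrels hstat 8 tree stepsA
    parB stepsB 571 hA rfl hB

/-- the `E₇` sub-diagram. -/
def e7 : Fin 7 → Fin 8 := ![6, 0, 5, 1, 2, 3, 4]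

set_option backward.isDefEq.respectTransparency false in
theorem he7 : ∀ i j : Fin 7, CoxeterMatrix.E₇ i j = coxLabel edges (e7 i) (e7 j) := by decide

theorem hL : PresentedGroup.mk (coxRelators edges ∪ {r | r ∈ extra})
    ((((List.replicate 9 [0, 2, 3, 4, 5, 6, 1]).flatten.map e7).map FreeGroup.of).prod) = 1 := by
  apply PresentedGroup.one_of_mem
  right
  have h : (List.replicate 9 ([0, 2, 3, 4, 5, 6, 1] : List (Fin 7))).flatten.map e7 =
      (List.replicate 9 ([6, 5, 1, 2, 3, 4, 0] : List (Fin 8))).flatten := by decide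
  rw [h]
  show _ ∈ extra
  simp [extra, pow_succ, mul_assoc]

theorem card_le : Finite Grp ∧ Nat.card Grp ≤ 6336 * 1451520 := by
  obtain ⟨X, f, -, -, -⟩ := main
  exact card_le_of_e7 edges extra e7 (fun i => hnodes _) he7
    (List.replicate 9 [0, 2, 3, 4, 5, 6, 1]).flatten 2 (by norm_num) (by decide +kernel) hL
    par.subs (by decide) 6336 f

end Cfsg.Agent.Lib.Helper13.U6x
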